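import Mathlib
import Cfsg.Agent.Base
import Cfsg.Agent.Lib.Gold3.WE

/-!
The trivalent coset graph of an amalgam of index `(3, 3)`: lines (non-backtracking bi-infinite walks) and
arc transitivity.
-/

set_option autoImplicit false
set_option linter.unusedSectionVars false
set_option linter.unusedVariables false

namespace H3.G3

open Subgroup H69 H70 Cfsg MulAction
open scoped commutatorElement Pointwise

variable {X : Type*} [Group X] [Finite X] {P₁ P₂ : Subgroup X}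

structure WA (P₁ P₂ : Subgroup X) : Prop where
  w₁ : WE P₁ P₂
  w₂ : WE P₂ P₁
  gen : P₁ ⊔ P₂ = ⊤

local notation "Γ" => cosetGraph P₁ P₂
local notation "𝐐" δ:max => 𝐎(Gv δ)

/-- the type of a vertex. -/
def ty (δ : CosetVertex P₁ P₂) : Bool := Sum.isLeft δ

theorem ty_vl (x : X) : ty (x • H68.vl P₁ P₂) = true := by rw [H68.smul_vl]; rfl
theorem ty_vr (x : X) : ty (x • H68.vr P₁ P₂) = false := by rw [H68.smul_vr]; rfl

theorem ty_smul (g : X) (δ : CosetVertex P₁ P₂) : ty (g • δ) = ty δ := by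
  obtain ⟨x, rfl | rfl⟩ := H68.vertex_cases δ
  · rw [← mul_smul, ty_vl, ty_vl]
  · rw [← mul_smul, ty_vr, ty_vr]

theorem ty_adj {δ μ : CosetVertex P₁ P₂} (h : (Γ).Adj δ μ) : ty μ = !ty δ := by
  obtain ⟨x, ⟨rfl, rfl⟩ | ⟨rfl, rfl⟩⟩ := H68.adj_iff.1 h <;> rw [ty_vl, ty_vr] <;> rfl

theorem exists_smul_of_ty {δ μ : CosetVertex P₁ P₂} (h : ty δ = ty μ) : ∃ g : X, g • δ = μ := by
  obtain ⟨x, rfl | rfl⟩ := H68.vertex_cases δ <;> obtain ⟨y, rfl | rfl⟩ := H68.vertex_cases μ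
  · exact ⟨y * x⁻¹, by rw [mul_smul, inv_smul_smul]⟩
  · rw [ty_vl, ty_vr] at h; cases h
  · rw [ty_vl, ty_vr] at h; cases h
  · exact ⟨y * x⁻¹, by rw [mul_smul, inv_smul_smul]⟩

theorem adj_cases {α β : CosetVertex P₁ P₂} (h : (Γ).Adj α β) (ht : ty α = true) :
    ∃ x : X, Gv α = P₁ ^ᶜ x ∧ Gv β = P₂ ^ᶜ x := by
  obtain ⟨x, ⟨rfl, rfl⟩ | ⟨rfl, rfl⟩⟩ := H68.adj_iff.1 h
  · exact ⟨x, H68.stabilizer_smul_vl x, H68.stabilizer_smul_vr x⟩
  · rw [ty_vr] at ht; cases ht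

theorem G_norm_Q (δ : CosetVertex P₁ P₂) : Gv δ ≤ 𝐍(𝐐 δ) := le_normalizer_pCoreOf 2 _
theorem Q_le_G (δ : CosetVertex P₁ P₂) : 𝐐 δ ≤ Gv δ := pCoreOf_le 2 _

theorem conj_mem_Q {δ : CosetVertex P₁ P₂} {g x : X} : g * x * g⁻¹ ∈ 𝐐 (g • δ) ↔ x ∈ 𝐐 δ := by
  rw [O_Gv_smul, cj_mem_iff]

theorem conj_mem_Z {δ : CosetVertex P₁ P₂} {g x : X} : g * x * g⁻¹ ∈ Zv (Gv (g • δ)) ↔ x ∈ Zv (Gv δ) := by
  rw [Z_Gv_smul, cj_mem_iff]

/-- a non-backtracking bi-infinite walk. -/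
def Line (p : ℤ → CosetVertex P₁ P₂) : Prop := ∀ i, (Γ).Adj (p i) (p (i + 1)) ∧ p i ≠ p (i + 2)

namespace Line

variable {p q : ℤ → CosetVertex P₁ P₂}

theorem adj (h : Line p) {i j : ℤ} (e : j = i + 1 ∨ i = j + 1) : (Γ).Adj (p i) (p j) := by
  rcases e with rfl | rfl
  exacts [(h i).1, (h j).1.symm]

theorem ne (h : Line p) {i j : ℤ} (e : j = i + 2 ∨ i = j + 2) : p i ≠ p j := by
  rcases e with rfl | rfl
  exacts [(h i).2, (h j).2.symm]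

theorem shift (h : Line p) (c : ℤ) : Line fun i => p (i + c) :=
  fun i => ⟨h.adj (by omega), h.ne (by omega)⟩

theorem rev (h : Line p) (c : ℤ) : Line fun i => p (c - i) :=
  fun i => ⟨h.adj (by omega), h.ne (by omega)⟩

theorem smul (h : Line p) (g : X) : Line fun i => g • p i :=
  fun i => ⟨H68.adj_smul (h i).1 g, fun e => (h i).2 (smul_left_cancel g e)⟩

theorem ty_nat (h : Line p) (i : ℤ) (n : ℕ) : ty (p (i + 2 * n)) = ty (p i) := by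
  induction n with
  | zero => simp
  | succ n ih =>
    rw [ty_adj (h.adj (i := i + 2 * n + 1) (j := i + 2 * (n + 1 : ℕ)) (by push_cast; omega)),
      ty_adj (h.adj (i := i + 2 * n) (j := i + 2 * n + 1) (by omega)), Bool.not_not, ih]

theorem ty_even (h : Line p) {i j : ℤ} (e : (j - i) % 2 = 0) : ty (p j) = ty (p i) := by
  rcases le_total i j with h1 | h1
  · rw [← h.ty_nat i ((j - i) / 2).toNat]
    congr 2
    omega
  · rw [← h.ty_nat j ((i - j) / 2).toNat]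
    congr 2
    omega

theorem ty_odd (h : Line p) {i j : ℤ} (e : (j - i) % 2 = 1) : ty (p j) = !ty (p i) := by
  rw [h.ty_even (i := i + 1) (by omega), ty_adj (h i).1]

theorem glue (hp : Line p) (hq : Line q) (m : ℤ) (h1 : p m = q m) (h2 : p (m - 1) ≠ q (m + 1)) :
    ∃ r, Line r ∧ (∀ i, i ≤ m → r i = p i) ∧ ∀ i, m ≤ i → r i = q i := by
  have e1 : ∀ i, i ≤ m → (if i ≤ m then p i else q i) = p i := fun i hi => if_pos hi
  have e2 : ∀ i, m ≤ i → (if i ≤ m then p i else q i) = q i := fun i hi => by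
    split_ifs with h
    · rw [le_antisymm h hi, h1]
    · rfl
  refine ⟨fun i => if i ≤ m then p i else q i, fun i => ⟨?_, ?_⟩, e1, e2⟩
  · rcases le_or_gt m i with h | h
    · simp only [e2 i h, e2 (i + 1) (by omega)]; exact (hq i).1
    · simp only [e1 i h.le, e1 (i + 1) (by omega)]; exact (hp i).1
  · rcases lt_trichotomy (i + 1) m with h | h | h
    · simp only [e1 i (by omega), e1 (i + 2) (by omega)]; exact (hp i).2
    · simp only [e1 i (by omega), e2 (i + 2) (by omega)]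
      rwa [show i = m - 1 by omega, show m - 1 + 2 = m + 1 by omega]
    · simp only [e2 i (by omega), e2 (i + 2) (by omega)]; exact (hq i).2

end Line

namespace WA

variable {α β γ μ ν : CosetVertex P₁ P₂} {p q : ℤ → CosetVertex P₁ P₂}

theorem we (h : WA P₁ P₂) (hadj : (Γ).Adj α β) : WE (Gv α) (Gv β) := by
  obtain ⟨x, ⟨rfl, rfl⟩ | ⟨rfl, rfl⟩⟩ := H68.adj_iff.1 hadj
  · rw [Gv, Gv, H68.stabilizer_smul_vl, H68.stabilizer_smul_vr]
    exact h.w₁.cj x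
  · rw [Gv, Gv, H68.stabilizer_smul_vl, H68.stabilizer_smul_vr]
    exact h.w₂.cj x

theorem conn (h : WA P₁ P₂) : (Γ).Connected := H68.connected_of_sup_eq_top h.gen

theorem Q_le (h : WA P₁ P₂) (hadj : (Γ).Adj α β) : 𝐐 α ≤ Gv β := (h.we hadj).Ole

theorem Q_le_inf (h : WA P₁ P₂) (hadj : (Γ).Adj α β) : 𝐐 α ≤ Gv α ⊓ Gv β := (h.we hadj).O_le

theorem Q_le_inf' (h : WA P₁ P₂) (hadj : (Γ).Adj α β) : 𝐐 β ≤ Gv α ⊓ Gv β :=
  le_inf (h.Q_le hadj.symm) (Q_le_G β)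

theorem le2 (h : WA P₁ P₂) (hadj : (Γ).Adj α β) : Le2 (𝐐 α) (Gv α ⊓ Gv β) := (h.we hadj).le2

theorem le2' (h : WA P₁ P₂) (hadj : (Γ).Adj α β) : Le2 (𝐐 β) (Gv α ⊓ Gv β) :=
  (h.le2 hadj.symm).mono_right (inf_comm _ _).le

theorem dist_le (h : WA P₁ P₂) (hadj : (Γ).Adj α β) (γ : CosetVertex P₁ P₂) :
    (Γ).dist α γ ≤ (Γ).dist β γ + 1 := by
  have := h.conn.dist_triangle (u := α) (v := β) (w := γ)
  rw [SimpleGraph.dist_eq_one_iff_adj.2 hadj] at this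
  omega

theorem dist_nat (h : WA P₁ P₂) (hp : Line p) (i : ℤ) (n : ℕ) : (Γ).dist (p (i + n)) (p i) ≤ n := by
  induction n with
  | zero => simp
  | succ n ih =>
    have := h.dist_le (hp.adj (i := i + (n + 1 : ℕ)) (j := i + n) (by push_cast; omega)) (p i)
    omega

theorem dist_line (h : WA P₁ P₂) (hp : Line p) (i j : ℤ) : (Γ).dist (p i) (p j) ≤ (i - j).natAbs := by
  rcases le_total i j with h1 | h1
  · have := h.dist_nat hp i (i - j).natAbs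
    rwa [show i + (i - j).natAbs = j by omega, SimpleGraph.dist_comm] at this
  · have := h.dist_nat hp j (i - j).natAbs
    rwa [show j + (i - j).natAbs = i by omega] at this

theorem inf_le_Q (h : WA P₁ P₂) (h1 : (Γ).Adj α β) (h2 : (Γ).Adj α γ) (hne : γ ≠ β) :
    Gv α ⊓ Gv β ⊓ Gv γ ≤ 𝐐 α := by
  obtain ⟨g, hg, rfl⟩ := H68.exists_stabilizer_smul_eq h1 h2
  rw [Gv_smul]
  exact (h.we h1).inf_cj_le hg hne

theorem exists_ne (h : WA P₁ P₂) (h1 : (Γ).Adj α β) : ∃ γ, (Γ).Adj α γ ∧ γ ≠ β := by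
  obtain ⟨g, hg, hgβ⟩ := exists_not_mem_of_not_le (h.we h1).not_le
  exact ⟨g • β, adj_smul_of_mem h1 hg, hgβ⟩

theorem smul_ne (h : WA P₁ P₂) (h1 : (Γ).Adj γ α) (h2 : (Γ).Adj γ μ) (hne : μ ≠ α) {q : X}
    (hq : q ∈ Gv γ ⊓ Gv α) (hqQ : q ∉ 𝐐 γ) : q • μ ≠ μ ∧ q • μ ≠ α := by
  refine ⟨fun h' => hqQ (h.inf_le_Q h1 h2 hne ⟨hq, h'⟩), fun h' => hne ?_⟩
  rw [← mem_stabilizer_iff.1 hq.2] at h'
  exact smul_left_cancel q h'

theorem four (h : WA P₁ P₂) {κ : CosetVertex P₁ P₂} (h1 : (Γ).Adj γ α) (h2 : (Γ).Adj γ μ) (h3 : (Γ).Adj γ κ)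
    (h4 : (Γ).Adj γ ν) (n1 : μ ≠ α) (n2 : κ ≠ α) (n3 : κ ≠ μ) : ν = α ∨ ν = μ ∨ ν = κ := by
  obtain ⟨g, hg, rfl⟩ := H68.exists_stabilizer_smul_eq h1 h2
  obtain ⟨k, hk, rfl⟩ := H68.exists_stabilizer_smul_eq h1 h3
  obtain ⟨l, hl, rfl⟩ := H68.exists_stabilizer_smul_eq h1 h4
  have key : ∀ x y : X, x⁻¹ * y ∈ Gv α ↔ y • α = x • α := fun x y => by
    rw [mem_stabilizer_iff, mul_smul, inv_smul_eq_iff]
  have := pigeon_of_relIndex_three (h.we h1).idx3 (one_mem _) hg hk hl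
    (by rwa [key, one_smul]) (by rwa [key, one_smul]) (by rwa [key])
  rwa [key, key, key, one_smul] at this

/-- an element of an edge group outside `Q` interchanges the two other neighbours. -/
theorem swap (h : WA P₁ P₂) (h1 : (Γ).Adj γ α) (h2 : (Γ).Adj γ μ) (h3 : (Γ).Adj γ ν) (n1 : μ ≠ α) (n2 : ν ≠ α)
    (n3 : ν ≠ μ) {q : X} (hq : q ∈ Gv γ ⊓ Gv α) (hqQ : q ∉ 𝐐 γ) : q • μ = ν := by
  obtain ⟨h4, h5⟩ := h.smul_ne h1 h2 n1 hq hqQ
  rcases h.four h1 h2 h3 (adj_smul_of_mem h2 hq.1) n1 n2 n3 with e | e | e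
  exacts [absurd e h5, absurd e h4, e]

theorem exists_third (h : WA P₁ P₂) (h1 : (Γ).Adj γ α) (h2 : (Γ).Adj γ μ) (hne : μ ≠ α) :
    ∃ ν, (Γ).Adj γ ν ∧ ν ≠ α ∧ ν ≠ μ := by
  obtain ⟨q, hq, hqQ⟩ := exists_not_mem_of_not_le (h.we h1).not_le_O
  obtain ⟨h4, h5⟩ := h.smul_ne h1 h2 hne hq hqQ
  exact ⟨q • μ, adj_smul_of_mem h2 hq.1, h5, h4⟩

theorem core (h : WA P₁ P₂) (h1 : (Γ).Adj α β) {N : Subgroup X} (h2 : N ≤ Gv α ⊓ Gv β) (h3 : Gv α ≤ 𝐍(N))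
    (h4 : Gv β ≤ 𝐍(N)) : N = ⊥ := (h.we h1).core N h2 h3 h4

theorem gen_mem (h : WA P₁ P₂) (h1 : (Γ).Adj α β) {N : Subgroup X} (hN : Gv α ⊓ Gv β ≤ N) {x : X}
    (hx : x ∈ Gv α) (hx' : x • β ≠ β) (hxN : x ∈ N) : Gv α ≤ N := (h.we h1).le_of_mem hN hx hx' hxN

theorem gen_le' (h : WA P₁ P₂) (h1 : (Γ).Adj α β) (h2 : (Γ).Adj α γ) (hne : γ ≠ β) {N : Subgroup X}
    (hC : Gv α ⊓ Gv β ≤ N) (hN : Gv α ⊓ Gv γ ≤ N) : Gv α ≤ N := by
  obtain ⟨q, hq, hqQ⟩ := exists_not_mem_of_not_le (h.we h1).not_le_O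
  exact h.gen_mem h2 hN hq.1 (h.smul_ne h1 h2 hne hq hqQ).1 (hC hq)

theorem exists_ray (h : WA P₁ P₂) (h1 : (Γ).Adj α β) :
    ∃ r : ℕ → CosetVertex P₁ P₂, r 0 = α ∧ r 1 = β ∧ ∀ n, (Γ).Adj (r n) (r (n + 1)) ∧ r n ≠ r (n + 2) := by
  let E := {e : CosetVertex P₁ P₂ × CosetVertex P₁ P₂ // (Γ).Adj e.1 e.2}
  have : ∀ e : E, ∃ e' : E, e'.1.1 = e.1.2 ∧ e'.1.2 ≠ e.1.1 := fun e => by
    obtain ⟨γ, h2, h3⟩ := h.exists_ne e.2.symm
    exact ⟨⟨(e.1.2, γ), h2⟩, rfl, h3⟩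
  choose f hf1 hf2 using this
  refine ⟨fun n => (f^[n] ⟨(α, β), h1⟩).1.1, rfl, hf1 _, fun n => ⟨?_, ?_⟩⟩
  · simp only [Function.iterate_succ_apply', hf1]
    exact (f^[n] ⟨(α, β), h1⟩).2
  · simp only [Function.iterate_succ_apply', hf1]
    exact (hf2 _).symm

theorem exists_line (h : WA P₁ P₂) (h1 : (Γ).Adj α β) (m : ℤ) : ∃ p, Line p ∧ p m = α ∧ p (m + 1) = β := by
  obtain ⟨r, r0, r1, hr⟩ := h.exists_ray h1
  obtain ⟨s, s0, s1, hs⟩ := h.exists_ray h1.symm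
  have e1 : ∀ i : ℤ, 0 ≤ i → (if 0 ≤ i then r i.toNat else s (1 - i).toNat) = r i.toNat := fun i hi => if_pos hi
  have e2 : ∀ i : ℤ, i ≤ 1 → (if 0 ≤ i then r i.toNat else s (1 - i).toNat) = s (1 - i).toNat := fun i hi => by
    split_ifs with h0
    · rcases (by omega : i = 0 ∨ i = 1) with rfl | rfl
      · exact r0.trans s1.symm
      · exact r1.trans s0.symm
    · rfl
  have hl : Line fun i : ℤ => if 0 ≤ i then r i.toNat else s (1 - i).toNat := by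
    intro i
    rcases le_or_gt 0 i with h0 | h0
    · simp only [e1 i h0, e1 (i + 1) (by omega), e1 (i + 2) (by omega)]
      rw [show (i + 1).toNat = i.toNat + 1 by omega, show (i + 2).toNat = i.toNat + 2 by omega]
      exact hr _
    · simp only [e2 i (by omega), e2 (i + 1) (by omega), e2 (i + 2) (by omega)]
      rw [show (1 - i).toNat = (1 - (i + 2)).toNat + 2 by omega,
        show (1 - (i + 1)).toNat = (1 - (i + 2)).toNat + 1 by omega]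
      exact ⟨(hs _).1.symm, (hs _).2.symm⟩
  refine ⟨_, hl.shift (-m), ?_, ?_⟩
  · simp [r0]
  · simp only [show m + 1 + -m = 1 by omega]
    simp [r1]

theorem branch (h : WA P₁ P₂) (hp : Line p) (m : ℤ) (h1 : (Γ).Adj (p m) μ) (h2 : μ ≠ p (m - 1)) :
    ∃ r, Line r ∧ (∀ i, i ≤ m → r i = p i) ∧ r (m + 1) = μ := by
  obtain ⟨q, hq, q0, q1⟩ := h.exists_line h1 m
  obtain ⟨r, hr, r1, r2⟩ := hp.glue hq m q0.symm (by rw [q1]; exact h2.symm)
  exact ⟨r, hr, r1, (r2 _ (by omega)).trans q1⟩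

theorem branchL (h : WA P₁ P₂) (hp : Line p) (m : ℤ) (h1 : (Γ).Adj (p m) μ) (h2 : μ ≠ p (m + 1)) :
    ∃ r, Line r ∧ (∀ i, m ≤ i → r i = p i) ∧ r (m - 1) = μ := by
  obtain ⟨q, hq, q0, q1⟩ := h.exists_line h1.symm (m - 1)
  rw [sub_add_cancel] at q1
  obtain ⟨r, hr, r1, r2⟩ := hq.glue hp m q1 (by rw [q0]; exact h2)
  exact ⟨r, hr, r2, (r1 _ (by omega)).trans q0⟩

/-- a line leaving `p` at position `m` to the right. -/
theorem fork (h : WA P₁ P₂) (hp : Line p) (m : ℤ) :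
    ∃ r, Line r ∧ (∀ i, i ≤ m → r i = p i) ∧ r (m + 1) ≠ p (m + 1) := by
  obtain ⟨ν, h1, h2, h3⟩ := h.exists_third (hp.adj (i := m) (j := m - 1) (by omega))
    (hp.adj (i := m) (j := m + 1) (by omega)) (hp.ne (by omega))
  obtain ⟨r, hr, r1, r2⟩ := h.branch hp m h1 h2
  exact ⟨r, hr, r1, r2 ▸ h3⟩

theorem forkL (h : WA P₁ P₂) (hp : Line p) (m : ℤ) :
    ∃ r, Line r ∧ (∀ i, m ≤ i → r i = p i) ∧ r (m - 1) ≠ p (m - 1) := by
  obtain ⟨ν, h1, h2, h3⟩ := h.exists_third (hp.adj (i := m) (j := m + 1) (by omega))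
    (hp.adj (i := m) (j := m - 1) (by omega)) (hp.ne (by omega))
  obtain ⟨r, hr, r1, r2⟩ := h.branchL hp m h1 h2
  exact ⟨r, hr, r1, r2 ▸ h3⟩

theorem exists_geodesic (h : WA P₁ P₂) (n : ℕ) : ∀ μ, (Γ).dist α μ = n + 1 →
    ∃ p, Line p ∧ p 0 = α ∧ p (n + 1 : ℕ) = μ := by
  induction n with
  | zero =>
    intro μ hd
    obtain ⟨p, hp, p0, p1⟩ := h.exists_line (SimpleGraph.dist_eq_one_iff_adj.1 hd) 0
    exact ⟨p, hp, p0, p1⟩
  | succ n ih =>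
    intro μ hd
    rw [SimpleGraph.dist_comm] at hd
    obtain ⟨c, hc, hd'⟩ := H68.exists_adj_dist_succ hd
    obtain ⟨p, hp, p0, p1⟩ := ih c (by rw [SimpleGraph.dist_comm, hd'])
    obtain ⟨r, hr, r1, r2⟩ := h.branch hp (n + 1 : ℕ) (p1 ▸ hc.symm) (μ := μ) (by
      rintro rfl
      have := h.dist_line hp ((n + 1 : ℕ) - 1) 0
      rw [p0, hd] at this
      omega)
    exact ⟨r, hr, (r1 0 (by omega)).trans p0, by rw [← r2]; congr 1⟩

end WA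

/-- transitivity on arcs of length at most `k`. -/
def Tr (P₁ P₂ : Subgroup X) (k : ℕ) : Prop :=
  ∀ j : ℕ, j ≤ k → ∀ p q : ℤ → CosetVertex P₁ P₂, Line p → Line q → ty (p 0) = ty (q 0) →
    ∃ g : X, ∀ i : ℤ, 0 ≤ i → i ≤ j → g • p i = q i

/-- an element fixing an arc of length `k` and moving its extensions. -/
def Mov (P₁ P₂ : Subgroup X) (k : ℕ) (t : Bool) : Prop :=
  ∃ r : ℤ → CosetVertex P₁ P₂, Line r ∧ ty (r k) = t ∧
    ∃ g : X, (∀ i : ℤ, 0 ≤ i → i ≤ k → g • r i = r i) ∧ g ∉ 𝐎(Gv (r k))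

theorem WA.tr (h : WA P₁ P₂) {k : ℕ} (hm : ∀ t, Mov P₁ P₂ k t) : Tr P₁ P₂ (k + 1) := by
  intro j
  induction j with
  | zero =>
    intro _ p q hp hq ht
    obtain ⟨g, hg⟩ := exists_smul_of_ty ht
    exact ⟨g, fun i h1 h2 => by rw [show i = 0 by omega]; exact hg⟩
  | succ j ih =>
    intro hj p q hp hq ht
    obtain ⟨g, hg⟩ := ih (by omega) p q hp hq ht
    have a1 : (Γ).Adj (q j) (g • p (j + 1)) := by
      rw [← hg j (by omega) le_rfl]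
      exact H68.adj_smul (hp j).1 g
    suffices ∃ u : X, (∀ i : ℤ, 0 ≤ i → i ≤ j → u • q i = q i) ∧ u • g • p (j + 1) = q (j + 1) by
      obtain ⟨u, u1, u2⟩ := this
      refine ⟨u * g, fun i h1 h2 => ?_⟩
      rcases (by push_cast at h2; omega : i ≤ j ∨ i = j + 1) with h3 | rfl
      · rw [mul_smul, hg i h1 h3, u1 i h1 h3]
      · rw [mul_smul, u2]
    rcases Nat.eq_zero_or_pos j with rfl | hj0
    · obtain ⟨u, hu, u2⟩ := H68.exists_stabilizer_smul_eq a1 (hq _).1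
      exact ⟨u, fun i h1 h2 => by rw [show i = (0 : ℕ) by omega]; exact hu, u2⟩
    by_cases e : g • p (j + 1) = q (j + 1)
    · exact ⟨1, fun i _ _ => one_smul _ _, by rw [one_smul, e]⟩
    obtain ⟨r, hr, rt, g0, g1, g2⟩ := hm (ty (q j))
    have hr' := hr.shift (k - j)
    obtain ⟨g', hg'⟩ := ih (by omega) _ q hr' hq (by
      rcases Int.emod_two_eq_zero_or_one (j : ℤ) with e | e
      · rw [← hq.ty_even (i := 0) (j := j) (by omega), ← rt, hr.ty_even (i := k) (by omega)]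
      · have e1 := hq.ty_odd (i := 0) (j := j) (by omega)
        rw [hr.ty_odd (i := k) (by omega), rt, e1, Bool.not_not])
    have fix : ∀ i : ℤ, 0 ≤ i → i ≤ j → (g' * g0 * g'⁻¹) • q i = q i := fun i h1 h2 => by
      rw [← hg' i h1 h2, mul_smul, mul_smul, inv_smul_smul, g1 _ (by omega) (by omega)]
    refine ⟨g' * g0 * g'⁻¹, fix, h.swap (hq.adj (i := j) (j := j - 1) (by omega)) a1 (hq _).1 ?_
      (hq.ne (by omega)) (Ne.symm e) ⟨fix j (by omega) le_rfl, fix (j - 1) (by omega) (by omega)⟩ ?_⟩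
    · rw [← hg (j - 1) (by omega) (by omega)]
      exact fun e' => hp.ne (by omega) (smul_left_cancel g e')
    · rw [← hg' j (by omega) le_rfl, conj_mem_Q]
      simpa using g2

theorem WA.mov_one (h : WA P₁ P₂) (t : Bool) : Mov P₁ P₂ 1 t := by
  have key : ∀ α β : CosetVertex P₁ P₂, (Γ).Adj α β → Mov P₁ P₂ 1 (ty β) := fun α β h1 => by
    obtain ⟨r, hr, r0, r1⟩ := h.exists_line h1 0
    obtain ⟨q, hq, hqQ⟩ := exists_not_mem_of_not_le (h.we h1.symm).not_le_O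
    have r1' : r (1 : ℕ) = β := r1
    refine ⟨r, hr, by rw [r1'], q, fun i h2 h3 => ?_, by rwa [r1']⟩
    rcases (by push_cast at h3; omega : i = 0 ∨ i = (1 : ℕ)) with rfl | rfl
    · rw [r0]; exact hq.2
    · rw [r1']; exact hq.1
  cases t
  · have := key _ _ (H68.adj_smul H68.adj_vl_vr (1 : X))
    rwa [ty_vr] at this
  · have := key _ _ (H68.adj_smul H68.adj_vl_vr (1 : X)).symm
    rwa [ty_vl] at this

theorem WA.tr_two (h : WA P₁ P₂) : Tr P₁ P₂ 2 := h.tr h.mov_one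

end H3.G3
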