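import Mathlib
import Cfsg.Agent.Base
import Cfsg.Agent.Lib.Gold3.Graph

/-!
Amalgams of type `(S₃, S₃)` in characteristic two with `Ω₁Z(T)` central in the second group: local facts.
-/

set_option autoImplicit false
set_option linter.unusedSectionVars false
set_option linter.unusedVariables false

namespace H3.G3

open Subgroup H69 H70 Cfsg MulAction
open scoped commutatorElement Pointwise

variable {X : Type*} [Group X] [Finite X] {P₁ P₂ : Subgroup X}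

theorem comm_eq_iff {a b t : X} : ⁅a, t⁆ = ⁅b, t⁆ ↔ a⁻¹ * b ∈ centralizer ({t} : Set X) := by
  rw [mem_centralizer_singleton_iff, commutatorElement_def, commutatorElement_def, mul_left_inj]
  constructor
  · intro h
    calc a⁻¹ * b * t = a⁻¹ * (b * t * b⁻¹) * b := by group
      _ = t * (a⁻¹ * b) := by rw [← h]; group
  · intro h
    calc a * t * a⁻¹ = a * (t * (a⁻¹ * b)) * b⁻¹ := by group
      _ = b * t * b⁻¹ := by rw [← h]; group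

theorem card_le_of_comm {V W : Subgroup X} {t : X} (h : ∀ v ∈ V, ⁅v, t⁆ ∈ W) :
    Nat.card V ≤ Nat.card W * Nat.card (centralizer ({t} : Set X) ⊓ V : Subgroup X) := by
  have h1 := ((centralizer ({t} : Set X) ⊓ V).subgroupOf V).index_mul_card
  rw [H69.card_subgroupOf inf_le_right] at h1
  rw [← h1]
  refine Nat.mul_le_mul_right _ (Nat.card_le_card_of_injective
    (fun c => (⟨⁅((Quotient.out c : V) : X), t⁆, h _ (Quotient.out c).2⟩ : W)) fun c d e => ?_)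
  have e' := comm_eq_iff.1 (congrArg Subtype.val e)
  rw [← Quotient.out_eq c, ← Quotient.out_eq d]
  exact QuotientGroup.eq.2 ⟨e', V.mul_mem (V.inv_mem (Quotient.out c).2) (Quotient.out d).2⟩

theorem le2_of_comm {V W : Subgroup X} {t : X} (h : ∀ v ∈ V, ⁅v, t⁆ ∈ W) (hW : Nat.card W = 2) :
    Le2 (centralizer ({t} : Set X)) V := le2_of_card_le (hW ▸ card_le_of_comm h)

theorem comm_mul_right {v a b : X} (h : Commute a ⁅v, b⁆) : ⁅v, a * b⁆ = ⁅v, a⁆ * ⁅v, b⁆ := by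
  have : ⁅v, a * b⁆ = ⁅v, a⁆ * (a * ⁅v, b⁆ * a⁻¹) := by simp only [commutatorElement_def]; group
  rw [this, h.eq, mul_inv_cancel_right]

theorem comm_mul_left {v a b : X} (h : Commute a ⁅b, v⁆) : ⁅a * b, v⁆ = ⁅b, v⁆ * ⁅a, v⁆ := by
  have : ⁅a * b, v⁆ = (a * ⁅b, v⁆ * a⁻¹) * ⁅a, v⁆ := by simp only [commutatorElement_def]; group
  rw [this, h.eq, mul_inv_cancel_right]

theorem comm_inv {a b : X} (ha : a * a = 1) (hb : b * b = 1) :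
    ⁅a, b⁆ = a * (b * a * b⁻¹) ∧ ⁅a, b⁆ = (a * b * a⁻¹) * b ∧ ⁅a, b⁆ = (a * b) * (a * b) := by
  rw [commutatorElement_def, inv_eq_of_mul_eq_one_right ha, inv_eq_of_mul_eq_one_right hb]
  exact ⟨by group, rfl, by group⟩

structure GA (P₁ P₂ : Subgroup X) : Prop extends WA P₁ P₂ where
  ch₁ : P₁ ⊓ 𝐂(𝐎(P₁)) ≤ 𝐎(P₁)
  ch₂ : P₂ ⊓ 𝐂(𝐎(P₂)) ≤ 𝐎(P₂)
  nc₁ : ¬ P₁ ≤ 𝐂(𝐙(P₁ ⊓ P₂))
  c₂ : P₂ ≤ 𝐂(𝐙(P₁ ⊓ P₂))

local notation "Γ" => cosetGraph P₁ P₂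
local notation "𝐐" δ:max => 𝐎(Gv δ)
local notation "𝐙'" δ:max => Zv (Gv δ)
local notation "𝐊" δ:max => 𝐑(2, Gv δ)

/-- `V_δ`. -/
def Vv (δ : CosetVertex P₁ P₂) : Subgroup X := ⨆ μ : {μ // (Γ).Adj δ μ}, 𝐙' μ.1

theorem Z_le_V {δ μ : CosetVertex P₁ P₂} (h : (Γ).Adj δ μ) : 𝐙' μ ≤ Vv δ :=
  le_iSup (fun μ : {μ // (Γ).Adj δ μ} => 𝐙' μ.1) ⟨μ, h⟩

theorem V_le {δ : CosetVertex P₁ P₂} {N : Subgroup X} (h : ∀ μ, (Γ).Adj δ μ → 𝐙' μ ≤ N) : Vv δ ≤ N :=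
  iSup_le fun μ => h μ.1 μ.2

theorem V_smul (g : X) (δ : CosetVertex P₁ P₂) : Vv (g • δ) = Vv δ ^ᶜ g := by
  have key : ∀ (g : X) (δ : CosetVertex P₁ P₂), Vv (g • δ) ≤ Vv δ ^ᶜ g := fun g δ => V_le fun μ h => by
    have := H68.adj_smul h g⁻¹
    rw [inv_smul_smul] at this
    rw [le_cj_iff, ← Z_Gv_smul]
    exact Z_le_V this
  refine le_antisymm (key g δ) ?_
  rw [cj_le_iff]
  simpa using key g⁻¹ (g • δ)

theorem G_norm_V (δ : CosetVertex P₁ P₂) : Gv δ ≤ 𝐍(Vv δ) := fun g hg =>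
  cj_eq_self_iff.1 (by rw [← V_smul, mem_stabilizer_iff.1 hg])

theorem G_norm_Z (δ : CosetVertex P₁ P₂) : Gv δ ≤ 𝐍(𝐙' δ) := le_norm_Zv _

theorem G_norm_K (δ : CosetVertex P₁ P₂) : Gv δ ≤ 𝐍(𝐊 δ) := le_normalizer_res _

namespace WA

variable {α β γ δ μ ν : CosetVertex P₁ P₂}

theorem res_le_ncl (h : WA P₁ P₂) (h1 : (Γ).Adj δ μ) {U : Subgroup X} (hU : U ≤ Gv δ ⊓ Gv μ) (hn : ¬ U ≤ 𝐐 δ) :
    𝐊 δ ≤ ncl U (Gv δ) := by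
  have h2 : Gv δ ⊓ Gv μ ≤ ncl U (Gv δ) ⊔ 𝐐 δ :=
    (h.le2 h1).le_of_not_le (inf_le_left.trans le_sup_right) hU hn ((le_ncl _ _).trans le_sup_left)
  have h3 : Gv δ ≤ ncl U (Gv δ) ⊔ 𝐐 δ := by
    obtain ⟨ν, h4, h5⟩ := h.exists_ne h1
    obtain ⟨g, hg, rfl⟩ := H68.exists_stabilizer_smul_eq h1 h4
    refine h.gen_le' h1 h4 h5 h2 ?_
    have := cj_mono g h2
    rwa [cj_eq_of_mem_normalizer (H69.le_normalizer_sup (le_normalizer_ncl _ _) (G_norm_Q δ) hg), cj_inf,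
      cj_eq_of_mem hg, ← Gv_smul] at this
  exact (res_mono h3).trans (res_sup_le (isPGroup_pCoreOf 2 _) ((Q_le_G δ).trans (le_normalizer_ncl _ _)))

theorem comm_K_le (h : WA P₁ P₂) (h1 : (Γ).Adj δ μ) {U E N : Subgroup X} (hU : U ≤ Gv δ ⊓ Gv μ)
    (hn : ¬ U ≤ 𝐐 δ) (hE : Gv δ ≤ 𝐍(E)) (hN : Gv δ ≤ 𝐍(N)) (hc : ⁅E, U⁆ ≤ N) : ⁅E, ncl U (Gv δ)⁆ ≤ N := by
  rw [ncl_def]
  refine commutator_iSup_le_right (fun g => (cj_le_of_mem (hU.trans inf_le_left) g.2).trans hN) fun g => ?_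
  have := cj_mono (g : X) hc
  rwa [cj_commutator, cj_eq_of_mem_normalizer (hE g.2), cj_eq_of_mem_normalizer (hN g.2)] at this

theorem exists_three (h : WA P₁ P₂) (δ : CosetVertex P₁ P₂) :
    ∃ d ∈ 𝐊 δ, d ^ 3 = 1 ∧ ∀ μ, (Γ).Adj δ μ → d • μ ≠ μ := by
  obtain ⟨μ, h1⟩ := H68.exists_adj δ
  obtain ⟨y, hy, hy3, -⟩ := (h.we h1).exists_three
  refine ⟨y, mem_res hy (by rw [hy3]; norm_num), hy3 ▸ pow_orderOf_eq_one y, fun ν h2 e => ?_⟩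
  have := eq_one_of_mem_isPGroup (h.we h2).isP (x := y) ⟨hy, e⟩ (by rw [hy3]; norm_num)
  rw [this] at hy3
  simp at hy3

theorem gen_K (h : WA P₁ P₂) (h1 : (Γ).Adj δ μ) {N : Subgroup X} (h2 : Gv δ ⊓ Gv μ ≤ N) (h3 : 𝐊 δ ≤ N) :
    Gv δ ≤ N := by
  obtain ⟨d, hd, -, hd'⟩ := h.exists_three δ
  exact h.gen_mem h1 h2 (res_le _ hd) (hd' μ h1) (h3 hd)

theorem card_Q (h : WA P₁ P₂) (h1 : (Γ).Adj δ μ) : Nat.card (𝐐 δ) = Nat.card (𝐐 μ) := by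
  have e1 := (h.we h1).card_inf
  have e2 := (h.we h1.symm).card_inf
  rw [inf_comm] at e2
  omega

end WA

namespace GA

variable {α β γ δ μ ν : CosetVertex P₁ P₂}

theorem edge (h : GA P₁ P₂) (h1 : (Γ).Adj α β) (ht : ty α = true) : Edge (Gv α) (Gv β) := by
  obtain ⟨x, e1, e2⟩ := adj_cases h1 ht
  rw [e1, e2]
  exact (h.w₁.edge h.ch₁ h.nc₁).cj x

theorem ch (h : GA P₁ P₂) (δ : CosetVertex P₁ P₂) : Gv δ ⊓ 𝐂(𝐐 δ) ≤ 𝐐 δ := by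
  obtain ⟨x, rfl | rfl⟩ := H68.vertex_cases δ
  · rw [Gv, H68.stabilizer_smul_vl]
    exact CharP.conj h.ch₁ x
  · rw [Gv, H68.stabilizer_smul_vr]
    exact CharP.conj h.ch₂ x

theorem Z_le_oz (h : GA P₁ P₂) (δ : CosetVertex P₁ P₂) : 𝐙' δ ≤ 𝐙(𝐐 δ) := H68.CharP'.Z_le_oz (h.ch δ)
theorem Z_le_Q (h : GA P₁ P₂) (δ : CosetVertex P₁ P₂) : 𝐙' δ ≤ 𝐐 δ := (h.Z_le_oz δ).trans (oz2_le _)
theorem Z_ea (h : GA P₁ P₂) (δ : CosetVertex P₁ P₂) : IsElementaryAbelian 2 (𝐙' δ) :=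
  H24.EA.mono (oz2_ea _) (h.Z_le_oz δ)
theorem Q_cent (h : GA P₁ P₂) (δ : CosetVertex P₁ P₂) : 𝐐 δ ≤ 𝐂(𝐙' δ) :=
  (le_cent_oz2 _).trans (H69.centralizer_anti (h.Z_le_oz δ))
theorem sq (h : GA P₁ P₂) {x : X} (hx : x ∈ 𝐙' δ) : x * x = 1 := by
  rw [← pow_two]; exact H24.EA.pow_eq_one (h.Z_ea δ) hx
theorem commQ (h : GA P₁ P₂) {x q : X} (hx : x ∈ 𝐙' δ) (hq : q ∈ 𝐐 δ) : Commute x q := h.Q_cent δ hq x hx

theorem ZB_eq (h : GA P₁ P₂) (h1 : (Γ).Adj α β) (ht : ty α = true) :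
    𝐙' β = 𝐙(Gv α ⊓ Gv β) ∧ Gv β ≤ 𝐂(𝐙(Gv α ⊓ Gv β)) := by
  have hc : Gv β ≤ 𝐂(𝐙(Gv α ⊓ Gv β)) := by
    obtain ⟨x, e1, e2⟩ := adj_cases h1 ht
    rw [e1, e2, ← cj_inf, ← cj_oz2, ← cj_centralizer]
    exact cj_mono x h.c₂
  have hs := (h.we h1.symm).sylowIn
  rw [inf_comm] at hs
  exact ⟨le_antisymm (H68.Z_le_of_le_normalizer hs le_rfl (le_normalizer_of_le_centralizer hc)) hs.oz_le_Z, hc⟩

theorem centB (h : GA P₁ P₂) (ht : ty β = false) : Gv β ≤ 𝐂(𝐙' β) := by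
  obtain ⟨α, h1⟩ := H68.exists_adj β
  obtain ⟨e1, e2⟩ := h.ZB_eq h1.symm (by rw [ty_adj h1, ht]; rfl)
  rwa [e1]

theorem commB (h : GA P₁ P₂) (ht : ty β = false) {z g : X} (hz : z ∈ 𝐙' β) (hg : g ∈ Gv β) : Commute z g :=
  h.centB ht hg z hz

theorem ZB_le (h : GA P₁ P₂) (h1 : (Γ).Adj α β) (ht : ty α = true) : 𝐙' β ≤ 𝐙' α :=
  (h.ZB_eq h1 ht).1.le.trans (h.edge h1 ht).oz_le_Z

theorem centA (h : GA P₁ P₂) (ht : ty α = true) : Gv α ⊓ 𝐂(𝐙' α) ≤ 𝐐 α := by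
  obtain ⟨β, h1⟩ := H68.exists_adj α
  exact (h.edge h1 ht).cent_Z

theorem tyB (h1 : (Γ).Adj α β) (ht : ty α = true) : ty β = false := by rw [ty_adj h1, ht]; rfl
theorem tyA (h1 : (Γ).Adj α β) (ht : ty α = false) : ty β = true := by rw [ty_adj h1, ht]; rfl

theorem ZB_ne_bot (h : GA P₁ P₂) (ht : ty β = false) : 𝐙' β ≠ ⊥ := by
  obtain ⟨α, h1⟩ := H68.exists_adj β
  rw [(h.ZB_eq h1.symm (tyA h1 ht)).1]
  exact oz2_ne_bot (h.we h1.symm).isP fun e => (h.we h1.symm).not_le_O (e.le.trans bot_le)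

theorem Z_ne_bot (h : GA P₁ P₂) (δ : CosetVertex P₁ P₂) : 𝐙' δ ≠ ⊥ := by
  cases ht : ty δ
  · exact h.ZB_ne_bot ht
  · obtain ⟨β, h1⟩ := H68.exists_adj δ
    exact (h.edge h1 ht).Z_ne_bot

theorem ZB_inf (h : GA P₁ P₂) (h1 : (Γ).Adj α β) (h2 : (Γ).Adj α γ) (hne : γ ≠ β) (ht : ty α = true) :
    𝐙' β ⊓ 𝐙' γ = ⊥ := by
  have c1 : Gv β ≤ 𝐂(𝐙' β ⊓ 𝐙' γ) := (h.centB (tyB h1 ht)).trans (H69.centralizer_anti inf_le_left)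
  have c2 : Gv γ ≤ 𝐂(𝐙' β ⊓ 𝐙' γ) := (h.centB (tyB h2 ht)).trans (H69.centralizer_anti inf_le_right)
  exact (h.we h1).eq_bot_of_cent (inf_le_left.trans ((h.Z_le_Q β).trans (h.Q_le_inf' h1)))
    (le_centralizer_comm.1 (h.gen_le' h1 h2 hne (inf_le_right.trans c1) (inf_le_right.trans c2)))
    (le_centralizer_comm.1 c1)

theorem eq_one (h : GA P₁ P₂) (h1 : (Γ).Adj α β) (h2 : (Γ).Adj α γ) (hne : γ ≠ β) (ht : ty α = true) {z : X}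
    (hz : z ∈ 𝐙' β) (hz' : z ∈ 𝐙' γ) : z = 1 := mem_bot.1 ((h.ZB_inf h1 h2 hne ht).le ⟨hz, hz'⟩)

theorem mem_ZB (h : GA P₁ P₂) (h1 : (Γ).Adj α β) (ht : ty α = true) {w t : X} (hw : w ∈ 𝐙(𝐐 α))
    (h2 : t ∈ Gv α ⊓ Gv β) (h3 : t ∉ 𝐐 α) (hc : Commute w t) : w ∈ 𝐙' β := by
  obtain ⟨w1, w2, w3⟩ := mem_oz2.1 hw
  rw [(h.ZB_eq h1 ht).1]
  refine mem_oz2.2 ⟨h.Q_le_inf h1 w1, le_centralizer_singleton_iff.1 ?_, w3⟩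
  exact (h.le2 h1).le_of_mem (inf_le_left.trans (le_centralizer_singleton_iff.2 w2)) h2 h3
    (mem_centralizer_singleton_iff.2 hc.symm)

theorem comm_mem (h : GA P₁ P₂) (h1 : (Γ).Adj α β) (ht : ty α = true) {w t : X} (hw : w ∈ 𝐙(𝐐 α))
    (h2 : t ∈ Gv α ⊓ Gv β) : ⁅w, t⁆ ∈ 𝐙' β := by
  have hn : t ∈ 𝐍(𝐙(𝐐 α)) := norm_le_norm_oz2 _ (G_norm_Q α h2.1)
  have c : ∀ {x q}, x ∈ 𝐙(𝐐 α) → q ∈ 𝐐 α → Commute x q := fun hx hq => le_cent_oz2 _ hq _ hx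
  by_cases h3 : t ∈ 𝐐 α
  · rw [(c hw h3).commutator_eq]; exact one_mem _
  have hw' := conj_mem_of_mem_normalizer hn (inv_mem hw)
  have e : ⁅w, t⁆ = w * (t * w⁻¹ * t⁻¹) := by rw [commutatorElement_def]; group
  refine h.mem_ZB h1 ht (e ▸ mul_mem hw hw') h2 h3 ?_
  have h4 : Commute w⁻¹ (t * t) := c (inv_mem hw) (h.le2 h1 t h2 t h2 h3 h3)
  have h5 : Commute w (t * w⁻¹ * t⁻¹) := c hw (oz2_le _ hw')
  have h6 : w⁻¹ = w := inv_eq_of_mul_eq_one_right (by rw [← pow_two]; exact (mem_oz2.1 hw).2.2)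
  rw [h6] at h4 h5 e
  rw [e, h5.eq]
  change _ * t = t * _
  calc t * w * t⁻¹ * w * t = t * (w * (t⁻¹ * (w * (t * t)) * t⁻¹)) := by group
    _ = t * (w * (t * w * t⁻¹)) := by rw [h4.eq]; group
    _ = _ := by rw [h5.eq]

theorem comm_memZ (h : GA P₁ P₂) (h1 : (Γ).Adj α β) (ht : ty α = true) {w t : X} (hw : w ∈ 𝐙' α)
    (h2 : t ∈ Gv α ⊓ Gv β) : ⁅w, t⁆ ∈ 𝐙' β := h.comm_mem h1 ht (h.Z_le_oz α hw) h2

theorem card_Z_eq (ht : ty δ = ty μ) : Nat.card (𝐙' δ) = Nat.card (𝐙' μ) := by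
  obtain ⟨g, rfl⟩ := exists_smul_of_ty ht
  rw [Z_Gv_smul, card_cj]

theorem oz_le (h : GA P₁ P₂) (h1 : (Γ).Adj α β) (h2 : (Γ).Adj α γ) (hne : γ ≠ β) (ht : ty α = true) :
    𝐙(𝐐 α) ≤ 𝐙' β ⊔ 𝐙' γ ∧ Nat.card 𝐙(𝐐 α) = Nat.card (𝐙' β) * Nat.card (𝐙' β) := by
  obtain ⟨t, h3, h4⟩ := exists_not_mem_of_not_le (h.we h1).not_le_O
  have e1 := card_le_of_comm fun w hw => h.comm_mem h1 ht hw h3
  have e2 : Nat.card (centralizer ({t} : Set X) ⊓ 𝐙(𝐐 α) : Subgroup X) ≤ Nat.card (𝐙' β) :=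
    card_le_of_le fun w hw => h.mem_ZB h1 ht hw.2 h3 h4 (mem_centralizer_singleton_iff.1 hw.1)
  have e3 := H24.card_sup_mul_card_inf (A := 𝐙' β) (B := 𝐙' γ)
    (le_normalizer_of_le_centralizer (((h.ZB_le h1 ht).trans (h.Z_le_Q α)).trans
      ((h.Q_le h2).trans (h.centB (tyB h2 ht)))))
  rw [h.ZB_inf h1 h2 hne ht, Subgroup.card_bot, mul_one, card_Z_eq ((tyB h2 ht).trans (tyB h1 ht).symm)] at e3
  have e4 : 𝐙' β ⊔ 𝐙' γ ≤ 𝐙(𝐐 α) := (sup_le (h.ZB_le h1 ht) (h.ZB_le h2 ht)).trans (h.Z_le_oz α)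
  have e5 := e1.trans (Nat.mul_le_mul_left _ e2)
  have e6 := eq_of_le_of_card_ge e4 (e3 ▸ e5)
  exact ⟨e6.ge, e6 ▸ e3⟩

theorem oz_eq (h : GA P₁ P₂) (ht : ty α = true) : 𝐙(𝐐 α) = 𝐙' α := by
  obtain ⟨β, h1⟩ := H68.exists_adj α
  obtain ⟨γ, h2, hne⟩ := h.exists_ne h1
  exact le_antisymm ((h.oz_le h1 h2 hne ht).1.trans (sup_le (h.ZB_le h1 ht) (h.ZB_le h2 ht))) (h.Z_le_oz α)

theorem ZA_le (h : GA P₁ P₂) (h1 : (Γ).Adj α β) (h2 : (Γ).Adj α γ) (hne : γ ≠ β) (ht : ty α = true)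
    {N : Subgroup X} (h3 : 𝐙' β ≤ N) (h4 : 𝐙' γ ≤ N) : 𝐙' α ≤ N :=
  (h.Z_le_oz α).trans ((h.oz_le h1 h2 hne ht).1.trans (sup_le h3 h4))

theorem card_ZA (h : GA P₁ P₂) (ht : ty α = true) (ht' : ty β = false) :
    Nat.card (𝐙' α) = Nat.card (𝐙' β) * Nat.card (𝐙' β) := by
  obtain ⟨β', h1⟩ := H68.exists_adj α
  obtain ⟨γ, h2, hne⟩ := h.exists_ne h1
  rw [← h.oz_eq ht, (h.oz_le h1 h2 hne ht).2, card_Z_eq ((tyB h1 ht).trans ht'.symm)]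

theorem two_le (h : GA P₁ P₂) (δ : CosetVertex P₁ P₂) : 2 ≤ Nat.card (𝐙' δ) :=
  (one_lt_card_iff_ne_bot _).2 (h.Z_ne_bot δ)

theorem not_ZA_le (h : GA P₁ P₂) (ht : ty α = true) (ht' : ty β = false) : ¬ 𝐙' α ≤ 𝐙' β := fun h1 => by
  have e1 := card_le_of_le h1
  rw [h.card_ZA ht ht'] at e1
  have := h.two_le β
  nlinarith

theorem comm_surj (h : GA P₁ P₂) (h1 : (Γ).Adj α β) (ht : ty α = true) {t z : X} (h3 : t ∈ Gv α ⊓ Gv β)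
    (h4 : t ∉ 𝐐 α) (hz : z ∈ 𝐙' β) : ∃ w ∈ 𝐙' α, ⁅w, t⁆ = z := by
  obtain ⟨γ, h2, hne⟩ := h.exists_ne h1
  let f : 𝐙' γ → 𝐙' β := fun w => ⟨⁅(w : X), t⁆, h.comm_memZ h1 ht (h.ZB_le h2 ht w.2) h3⟩
  have hf : Function.Injective f := fun a b e => by
    have e' := comm_eq_iff.1 (congrArg Subtype.val e)
    have m : (a : X)⁻¹ * b ∈ 𝐙' γ := mul_mem (inv_mem a.2) b.2
    have := h.eq_one h1 h2 hne ht (h.mem_ZB h1 ht (h.Z_le_oz α (h.ZB_le h2 ht m)) h3 h4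
      (mem_centralizer_singleton_iff.1 e')) m
    exact Subtype.ext (inv_mul_eq_one.1 this)
  obtain ⟨w, hw⟩ := (hf.bijective_of_nat_card_le (card_Z_eq ((tyB h1 ht).trans (tyB h2 ht).symm)).le).2 ⟨z, hz⟩
  exact ⟨w, h.ZB_le h2 ht w.2, congrArg Subtype.val hw⟩

theorem not_norm_Z (h : GA P₁ P₂) (h1 : (Γ).Adj α β) : ¬ Gv β ≤ 𝐍(𝐙' α) := fun h2 =>
  h.Z_ne_bot α (h.core h1 ((h.Z_le_Q α).trans (h.Q_le_inf h1)) (G_norm_Z α) h2)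

theorem CQK (h : GA P₁ P₂) (ht : ty α = true) : 𝐐 α ⊓ 𝐂(𝐊 α) = ⊥ := by
  obtain ⟨β, h1⟩ := H68.exists_adj α
  by_contra h2
  refine H68.oz_inf_ne_bot (h.we h1).isP (inf_le_left.trans (h.Q_le_inf h1)) (inf_le_left.trans
    (H69.le_normalizer_inf (G_norm_Q α) (H69.le_normalizer_centralizer (G_norm_K α)))) h2 ?_
  obtain ⟨e1, e2⟩ := h.ZB_eq h1 ht
  refine (h.we h1).eq_bot_of_cent (inf_le_left.trans (oz2_le _)) (le_centralizer_comm.1 ?_)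
    (le_centralizer_comm.1 (e2.trans (H69.centralizer_anti inf_le_left)))
  exact h.gen_K h1 ((le_cent_oz2 _).trans (H69.centralizer_anti inf_le_left))
    (le_centralizer_comm.1 (inf_le_right.trans inf_le_right))

theorem comm_V (h : GA P₁ P₂) (ht : ty β = false) : ⁅Vv β, 𝐐 β⁆ ≤ 𝐙' β := by
  refine commutator_iSup_le_left (fun μ => ?_) fun μ => commutator_le.2 fun w hw q hq => ?_
  · exact ((h.Z_le_Q _).trans (h.Q_le μ.2.symm)).trans (G_norm_Z β)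
  · exact h.comm_memZ μ.2.symm (tyA μ.2 ht) hw (h.Q_le_inf' μ.2.symm hq)

theorem comm_V' (h : GA P₁ P₂) (ht : ty β = false) {v q : X} (hv : v ∈ Vv β) (hq : q ∈ 𝐐 β) : ⁅v, q⁆ ∈ 𝐙' β :=
  h.comm_V ht (commutator_mem_commutator hv hq)

/-- squares are trivial in a subgroup of `Q_α` on which `O²(G_α)` acts trivially modulo `Z_α`. -/
theorem ea_of_comm (h : GA P₁ P₂) (ht : ty α = true) {Y : Subgroup X} (h1 : Y ≤ 𝐐 α) (h2 : ⁅Y, 𝐊 α⁆ ≤ 𝐙' α) :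
    IsElementaryAbelian 2 Y := by
  have key : ∀ x ∈ Y, x * x = 1 := fun x hx => mem_bot.1 ((h.CQK ht).le ⟨mul_mem (h1 hx) (h1 hx), fun k hk => by
    have h3 : ⁅x, k⁆ ∈ 𝐙' α := h2 (commutator_mem_commutator hx hk)
    have h4 := h.commQ h3 (h1 hx)
    have e : k * x⁻¹ * k⁻¹ = x⁻¹ * ⁅x, k⁆ := by rw [commutatorElement_def]; group
    have e2 : k * (x * x)⁻¹ * k⁻¹ = (x * x)⁻¹ := by
      calc k * (x * x)⁻¹ * k⁻¹ = (k * x⁻¹ * k⁻¹) * (k * x⁻¹ * k⁻¹) := by group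
        _ = x⁻¹ * (⁅x, k⁆ * x⁻¹) * ⁅x, k⁆ := by rw [e]; group
        _ = x⁻¹ * x⁻¹ * (⁅x, k⁆ * ⁅x, k⁆) := by rw [h4.inv_right.eq]; group
        _ = _ := by rw [h.sq h3]; group
    calc k * (x * x) = (k * (x * x)⁻¹ * k⁻¹)⁻¹ * k := by simp [mul_assoc]
      _ = _ := by rw [e2, inv_inv]⟩)
  refine H24.EA.iff_mem.2 ⟨fun a ha b hb => ?_, fun a ha => by rw [pow_two, key a ha]⟩
  have := key _ (mul_mem ha hb)
  calc a * b = (a * b)⁻¹ := (inv_eq_of_mul_eq_one_right this).symm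
    _ = b * a := by
      rw [mul_inv_rev, inv_eq_of_mul_eq_one_right (key a ha), inv_eq_of_mul_eq_one_right (key b hb)]

end GA

/-- `G_α^{(2)}`. -/
def Ev (α : CosetVertex P₁ P₂) : Subgroup X := 𝐐 α ⊓ ⨅ μ : {μ // (Γ).Adj α μ}, 𝐐 μ.1

theorem mem_E {α : CosetVertex P₁ P₂} {x : X} : x ∈ Ev α ↔ x ∈ 𝐐 α ∧ ∀ μ, (Γ).Adj α μ → x ∈ 𝐐 μ := by
  rw [Ev, mem_inf, mem_iInf]
  exact ⟨fun h => ⟨h.1, fun μ hμ => h.2 ⟨μ, hμ⟩⟩, fun h => ⟨h.1, fun μ => h.2 μ.1 μ.2⟩⟩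

theorem E_le (α : CosetVertex P₁ P₂) : Ev α ≤ 𝐐 α := inf_le_left

theorem E_le' {α μ : CosetVertex P₁ P₂} (h : (Γ).Adj α μ) : Ev α ≤ 𝐐 μ := fun x hx => (mem_E.1 hx).2 μ h

theorem G_norm_E (α : CosetVertex P₁ P₂) : Gv α ≤ 𝐍(Ev α) := le_normalizer_of_cj_le fun g hg x hx => by
  obtain ⟨y, hy, rfl⟩ := mem_cj'.1 hx
  refine mem_E.2 ⟨conj_mem_of_mem_normalizer (G_norm_Q α hg) (E_le α hy), fun μ hμ => ?_⟩
  have := conj_mem_Q (g := g).2 (E_le' (adj_smul_of_mem hμ (inv_mem hg)) hy)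
  rwa [smul_inv_smul] at this

namespace WA

variable {α β γ δ μ ν : CosetVertex P₁ P₂}

theorem mem_E3 (h : WA P₁ P₂) (h1 : (Γ).Adj α β) (h2 : (Γ).Adj α γ) (h3 : (Γ).Adj α δ) (n1 : γ ≠ β) (n2 : δ ≠ β)
    (n3 : δ ≠ γ) {x : X} (m0 : x ∈ 𝐐 α) (m1 : x ∈ 𝐐 β) (m2 : x ∈ 𝐐 γ) (m3 : x ∈ 𝐐 δ) : x ∈ Ev α :=
  mem_E.2 ⟨m0, fun μ hμ => by rcases h.four h1 h2 h3 hμ n1 n2 n3 with rfl | rfl | rfl <;> assumption⟩

theorem le2Q (h : WA P₁ P₂) (h1 : (Γ).Adj α β) : Le2 (𝐐 β) (𝐐 α) := (h.le2' h1).mono_right (h.Q_le_inf h1)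

theorem card_Q_le (h : WA P₁ P₂) (α : CosetVertex P₁ P₂) : Nat.card (𝐐 α) ≤ 8 * Nat.card (Ev α) := by
  obtain ⟨β, h1⟩ := H68.exists_adj α
  obtain ⟨γ, h2, n1⟩ := h.exists_ne h1
  obtain ⟨δ, h3, n2, n3⟩ := h.exists_third h1 h2 n1
  have e1 := (h.le2Q h1).card_le
  have e2 := ((h.le2Q h2).mono_right (inf_le_right : 𝐐 β ⊓ 𝐐 α ≤ 𝐐 α)).card_le
  have e3 := ((h.le2Q h3).mono_right (inf_le_right.trans inf_le_right : 𝐐 γ ⊓ (𝐐 β ⊓ 𝐐 α) ≤ 𝐐 α)).card_le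
  have e4 : Nat.card (𝐐 δ ⊓ (𝐐 γ ⊓ (𝐐 β ⊓ 𝐐 α)) : Subgroup X) ≤ Nat.card (Ev α) :=
    card_le_of_le fun x hx => h.mem_E3 h1 h2 h3 n1 n2 n3 hx.2.2.2 hx.2.2.1 hx.2.1 hx.1
  omega

/-- an invariant subgroup of `Q_α / E_α` containing a nontrivial element of some `Q_β` has index at most two. -/
theorem le2_R (h : WA P₁ P₂) (h1 : (Γ).Adj α β) {R : Subgroup X} (hE : Ev α ≤ R) (hRQ : R ≤ 𝐐 α)
    (hK : 𝐊 α ≤ 𝐍(R)) {c : X} (hc : c ∈ R) (hcβ : c ∈ 𝐐 β) (hcE : c ∉ Ev α) : Le2 R (𝐐 α) := by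
  obtain ⟨d, hd, d3, hd'⟩ := h.exists_three α
  have hdG := res_le _ hd
  have h2 := adj_smul_of_mem h1 hdG
  have h3 := adj_smul_of_mem h2 hdG
  have e3 : d • d • d • β = β := by rw [← mul_smul, ← mul_smul, ← pow_three', d3, one_smul]
  have n1 := hd' β h1
  have n3 := hd' _ h2
  have n2 : d • d • β ≠ β := fun e => hd' _ h3 (e3.trans e.symm)
  have cj1 : ∀ x ∈ R, d * x * d⁻¹ ∈ R := fun x hx => conj_mem_of_mem_normalizer (hK hd) hx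
  have q1 : ∀ x : X, d * x * d⁻¹ ∈ 𝐐 β ↔ x ∈ 𝐐 (d • d • β) := fun x => by
    conv_lhs => rw [← e3]
    exact conj_mem_Q
  obtain ⟨c1, m0, m1, m2, m3⟩ : ∃ c1 ∈ R, c1 ∈ 𝐐 β ∧ c1 ∉ 𝐐 (d • β) ∧ c1 ∉ 𝐐 (d • d • β) := by
    by_cases a2 : c ∈ 𝐐 (d • β) <;> by_cases a3 : c ∈ 𝐐 (d • d • β)
    · exact absurd (h.mem_E3 h1 h2 h3 n1 n2 n3 (hRQ hc) hcβ a2 a3) hcE
    · refine ⟨c * (d * (d * c * d⁻¹) * d⁻¹), mul_mem hc (cj1 _ (cj1 _ hc)),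
        mul_mem hcβ ((q1 _).2 (conj_mem_Q.2 a2)), fun e => a3 ?_, fun e => a3 ?_⟩
      · exact (q1 _).1 (conj_mem_Q.1 ((mul_mem_cancel_left a2).1 e))
      · exact (mul_mem_cancel_right (conj_mem_Q.2 (conj_mem_Q.2 hcβ))).1 e
    · refine ⟨c * (d * c * d⁻¹), mul_mem hc (cj1 _ hc), mul_mem hcβ ((q1 _).2 a3), fun e => a2 ?_, fun e => a2 ?_⟩
      · exact (mul_mem_cancel_right (conj_mem_Q.2 hcβ)).1 e
      · exact conj_mem_Q.1 ((mul_mem_cancel_left a3).1 e)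
    · exact ⟨c, hc, hcβ, a2, a3⟩
  have k0 := cj1 _ m0
  have k1 : d * c1 * d⁻¹ ∉ 𝐐 β := fun e => m3 ((q1 _).1 e)
  have k2 : d * c1 * d⁻¹ ∈ 𝐐 (d • β) := conj_mem_Q.2 m1
  have red : ∀ x ∈ 𝐐 α, ∃ r ∈ R, x * r ∈ 𝐐 β ∧ x * r ∈ 𝐐 (d • β) := fun x hx => by
    by_cases a1 : x ∈ 𝐐 β <;> by_cases a2 : x ∈ 𝐐 (d • β)
    · exact ⟨1, one_mem _, by simpa using a1, by simpa using a2⟩
    · exact ⟨c1, m0, mul_mem a1 m1, h.le2Q h2 x hx c1 (hRQ m0) a2 m2⟩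
    · exact ⟨_, k0, h.le2Q h1 x hx _ (hRQ k0) a1 k1, mul_mem a2 k2⟩
    · refine ⟨_ * c1, mul_mem k0 m0, ?_, ?_⟩
      · rw [← mul_assoc]; exact mul_mem (h.le2Q h1 x hx _ (hRQ k0) a1 k1) m1
      · exact h.le2Q h2 x hx _ (hRQ (mul_mem k0 m0)) a2 fun e => m2 ((mul_mem_cancel_left k2).1 e)
  intro x hx y hy hxR hyR
  obtain ⟨r, hr, r1, r2⟩ := red x⁻¹ (inv_mem hx)
  obtain ⟨s, hs, s1, s2⟩ := red y hy
  have r0 := mul_mem (inv_mem hx) (hRQ hr)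
  have s0 := mul_mem hy (hRQ hs)
  have r3 : x⁻¹ * r ∉ 𝐐 (d • d • β) := fun e =>
    hxR (inv_mem_iff.1 ((mul_mem_cancel_right hr).1 (hE (h.mem_E3 h1 h2 h3 n1 n2 n3 r0 r1 r2 e))))
  have s3 : y * s ∉ 𝐐 (d • d • β) := fun e =>
    hyR ((mul_mem_cancel_right hs).1 (hE (h.mem_E3 h1 h2 h3 n1 n2 n3 s0 s1 s2 e)))
  have := hE (h.mem_E3 h1 h2 h3 n1 n2 n3 (mul_mem (inv_mem r0) s0) (mul_mem (inv_mem r1) s1)
    (mul_mem (inv_mem r2) s2) ((h.le2Q h3).inv_mul r0 s0 r3 s3))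
  have e : x * y = r * ((x⁻¹ * r)⁻¹ * (y * s)) * s⁻¹ := by group
  rw [e]
  exact mul_mem (mul_mem hr this) (inv_mem hs)

end WA

namespace GA

variable {α β : CosetVertex P₁ P₂}

theorem le_Z_of_cent (h : GA P₁ P₂) (h1 : (Γ).Adj α β) (ht : ty α = true) {Y : Subgroup X} (hZ : 𝐙' α ≤ Y)
    (hY : Y ≤ Ev α) (hK : ⁅Y, 𝐊 α⁆ ≤ 𝐙' α) (hYE : Y ≤ 𝐂(Ev α)) {c : X} (hc : c ∈ 𝐐 α) (hcβ : c ∈ 𝐐 β)
    (hcE : c ∉ Ev α) (hYc : Y ≤ centralizer {c}) : Y ≤ 𝐙' α := by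
  have hKG : 𝐊 α ≤ Gv α := res_le _
  have hKY : 𝐊 α ≤ 𝐍(Y) := le_normalizer_of_commutator_le_left (hK.trans hZ)
  have hR : 𝐊 α ≤ 𝐍(Ev α ⊔ ncl (zpowers c) (𝐊 α)) :=
    H69.le_normalizer_sup (hKG.trans (G_norm_E α)) (le_normalizer_ncl _ _)
  have l2 := h.le2_R h1 le_sup_left (sup_le (E_le α) (ncl_le (zpowers_le_of_mem hc) (hKG.trans (G_norm_Q α)))) hR
    ((le_sup_right : ncl (zpowers c) (𝐊 α) ≤ _) (le_ncl _ _ (mem_zpowers c))) hcβ hcE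
  have h2 : ⁅𝐊 α, 𝐐 α⁆ ≤ 𝐂(Y) := by
    refine le_trans (commutator_le.2 fun k hk q hq => ?_) (sup_le (le_centralizer_comm.1 hYE)
      (ncl_le_centralizer (le_centralizer_comm.1 (by rwa [H69.centralizer_zpowers])) hKY))
    rw [commutatorElement_def]
    by_cases a : q ∈ Ev α ⊔ ncl (zpowers c) (𝐊 α)
    · exact mul_mem (conj_mem_of_mem_normalizer (hR hk) a) (inv_mem a)
    · refine l2.mul_inv (conj_mem_of_mem_normalizer (G_norm_Q α (hKG hk)) hq) hq (fun e => a ?_) a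
      simpa [mul_assoc] using conj_mem_of_mem_normalizer' (hR hk) e
  have h3 : ⁅Y, 𝐊 α⁆ ≤ 𝐂(𝐐 α) := hK.trans (le_centralizer_comm.1 (h.Q_cent α))
  have h4 : ⁅𝐐 α, Y⁆ ≤ 𝐂(𝐊 α) := three_subgroups_cent h3 h2
  have h5 : ⁅𝐐 α, Y⁆ = ⊥ :=
    eq_bot_iff.2 ((le_inf (commutator_le_of_le le_rfl (hY.trans (E_le α))) h4).trans (h.CQK ht).le)
  rw [← h.oz_eq ht]
  exact le_oz2 (h.ea_of_comm ht (hY.trans (E_le α)) hK) (hY.trans (E_le α))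
    (le_centralizer_comm.1 (le_centralizer_of_commutator_eq_bot h5))

theorem bound (h : GA P₁ P₂) (h1 : (Γ).Adj α β) (ht : ty α = true) (hn : Nat.card (𝐙' β) = 2) {c : X}
    (hl : Le2 (centralizer {c}) (Ev α)) (hY : centralizer {c} ⊓ Ev α ≤ 𝐙' α) :
    Nat.card (Gv α ⊓ Gv β : Subgroup X) ≤ 128 := by
  have e1 := (h.we h1).card_inf
  have e2 := h.card_Q_le α
  have e3 := hl.card_le
  have e4 := card_le_of_le hY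
  rw [h.card_ZA ht (tyB h1 ht), hn] at e4
  omega

end GA

end H3.G3
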