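import Mathlib
import Cfsg.Agent.Base
import Cfsg.Agent.Lib.Gold3.Local

/-!
Amalgams of type `(S₃, S₃)` with `Ω₁Z(T)` central in the second group: critical distance one or even.
-/

set_option autoImplicit false
set_option linter.unusedSectionVars false
set_option linter.unusedVariables false

namespace H3.G3

open Subgroup H69 H70 Cfsg MulAction
open scoped commutatorElement Pointwise

variable {X : Type*} [Group X] [Finite X] {P₁ P₂ : Subgroup X}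

local notation "Γ" => cosetGraph P₁ P₂
local notation "𝐐" δ:max => 𝐎(Gv δ)
local notation "𝐙'" δ:max => Zv (Gv δ)
local notation "𝐊" δ:max => 𝐑(2, Gv δ)

theorem le_of_card_two {U W : Subgroup X} (h : Nat.card U = 2) {r : X} (h1 : r ∈ U) (h2 : r ≠ 1) (h3 : r ∈ W) :
    U ≤ W := fun x hx => by
  by_cases e : x = 1
  · rw [e]; exact one_mem _
  · rw [eq_of_card_two h hx h1 e h2]; exact h3

theorem Tr.crit {k j : ℕ} (h : Tr P₁ P₂ k) (hj : j ≤ k) {p q : ℤ → CosetVertex P₁ P₂} (hp : Line p) (hq : Line q)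
    (ht : ty (p 0) = ty (q 0)) (hc : ¬ 𝐙' (p 0) ≤ 𝐐 (p j)) : ¬ 𝐙' (q 0) ≤ 𝐐 (q j) := by
  obtain ⟨g, hg⟩ := h j hj p q hp hq ht
  rwa [← hg 0 le_rfl (by omega), ← hg j (by omega) le_rfl, Z_Gv_smul, O_Gv_smul, cj_le_cj_iff]

namespace GA

variable {α β γ δ μ ν : CosetVertex P₁ P₂}

theorem le2Z (h : GA P₁ P₂) (h1 : (Γ).Adj α β) (ht : ty α = true) (hn : Nat.card (𝐙' β) = 2) :
    Le2 (𝐙' β) (𝐙' α) := le2_of_card_le (by
  rw [inf_eq_left.2 (h.ZB_le h1 ht), h.card_ZA ht (tyB h1 ht), hn])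

theorem not_K_cent (h : GA P₁ P₂) (δ : CosetVertex P₁ P₂) : ¬ 𝐊 δ ≤ 𝐂(𝐐 δ) := fun h1 => by
  obtain ⟨μ, h2⟩ := H68.exists_adj δ
  obtain ⟨d, hd, -, hd'⟩ := h.exists_three δ
  exact hd' μ h2 (h.Q_le h2 (h.ch δ ⟨res_le _ hd, h1 hd⟩))

theorem norm_QQ (h : GA P₁ P₂) (h1 : (Γ).Adj α β) : Gv α ⊓ Gv β ≤ 𝐍(𝐐 α ⊓ 𝐐 β) :=
  H69.le_normalizer_inf (inf_le_left.trans (G_norm_Q α)) (inf_le_right.trans (G_norm_Q β))

/-- if `Q_β ∩ Q_γ ≤ Q_α` then this intersection is normal in `G_β`. -/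
theorem norm_of_le (h : GA P₁ P₂) (h1 : (Γ).Adj β α) (h2 : (Γ).Adj β γ) (hne : γ ≠ α) (hle : 𝐐 β ⊓ 𝐐 γ ≤ 𝐐 α) :
    Gv β ≤ 𝐍(𝐐 β ⊓ 𝐐 α) := by
  obtain ⟨g, hg, rfl⟩ := H68.exists_stabilizer_smul_eq h1 h2
  have e : 𝐐 β ⊓ 𝐐 (g • α) = 𝐐 β ⊓ 𝐐 α := by
    refine eq_of_le_of_card_ge (le_inf inf_le_left hle) ?_
    rw [O_Gv_smul, ← card_cj _ g, cj_inf, cj_eq_of_mem_normalizer (G_norm_Q β hg)]
  exact h.gen_le' h1 h2 hne (h.norm_QQ h1) (e ▸ h.norm_QQ h2)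

theorem bound_one (h : GA P₁ P₂) (h1 : (Γ).Adj α β) (ht : ty α = true) (hn : ¬ 𝐙' α ≤ 𝐐 β) :
    Nat.card (Gv α ⊓ Gv β : Subgroup X) ≤ 128 := by
  have crit : ∀ δ, (Γ).Adj β δ → ¬ 𝐙' δ ≤ 𝐐 β := fun δ h2 => by
    obtain ⟨g, hg, rfl⟩ := H68.exists_stabilizer_smul_eq h1.symm h2
    rwa [Z_Gv_smul, cj_le_iff, cj_eq_of_mem_normalizer (inv_mem (G_norm_Q β hg))]
  have ea : ∀ δ, (Γ).Adj β δ → 𝐐 δ ≤ 𝐙' δ := fun δ h2 => by
    have td := tyA h2 (tyB h1 ht)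
    obtain ⟨γ, h3, hne⟩ := h.exists_ne h2
    set S := Subgroup.closure ((fun x : X => x * x) '' (𝐐 δ : Set X)) with hS
    have norm : Gv δ ≤ 𝐍(S) := by
      refine le_normalizer_of_cj_le fun g hg => ?_
      rw [cj_le_iff, Subgroup.closure_le]
      rintro _ ⟨x, hx, rfl⟩
      rw [SetLike.mem_coe, mem_cj, inv_inv]
      exact subset_closure ⟨g * x * g⁻¹, conj_mem_of_mem_normalizer (G_norm_Q δ hg) hx, by group⟩
    have hSQ : S ≤ 𝐐 δ ⊓ 𝐐 γ := by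
      rw [Subgroup.closure_le]
      rintro _ ⟨x, hx, rfl⟩
      refine ⟨mul_mem hx hx, ?_⟩
      have h4 : 𝐐 δ ≤ 𝐙' δ ⊔ (𝐐 β ⊓ 𝐐 δ) :=
        (h.le2Q h2.symm).le_of_not_le le_sup_right (h.Z_le_Q δ) (crit δ h2) le_sup_left
      obtain ⟨z, hz, d, hd, rfl⟩ := (mem_sup_of_le_normalizer_left (le_normalizer_of_le_centralizer
        (inf_le_right.trans (h.Q_cent δ)))).1 (h4 hx)
      have e : z * d * (z * d) = d * d := by
        rw [mul_assoc, ← mul_assoc d, ← (h.commQ hz hd.2).eq, ← mul_assoc, ← mul_assoc, h.sq hz, one_mul]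
      change z * d * (z * d) ∈ _
      rw [e]
      by_cases a : d ∈ 𝐐 γ
      exacts [mul_mem a a, h.le2Q h3 d hd.1 d hd.1 a a]
    have hbot : S = ⊥ := by
      refine h.core h2.symm (hSQ.trans (inf_le_left.trans (h.Q_le_inf h2.symm))) norm ?_
      obtain ⟨x, hx, hxQ⟩ := exists_not_mem_of_not_le (crit γ h3)
      have xm : x ∈ Gv β ⊓ Gv γ := h.Q_le_inf' h3 (h.Z_le_Q γ hx)
      refine h.gen_mem h2 (inf_le_right.trans norm) xm.1 (h.smul_ne h3 h2 hne.symm xm hxQ).1 ?_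
      exact centralizer_le_normalizer _ fun s hs => (h.commQ hx (hSQ hs).2).eq.symm
    have key : ∀ x ∈ 𝐐 δ, x * x = 1 := fun x hx => mem_bot.1 (hbot.le (subset_closure ⟨x, hx, rfl⟩))
    have hea : IsElementaryAbelian 2 (𝐐 δ) := by
      refine H24.EA.iff_mem.2 ⟨fun a ha b hb => ?_, fun a ha => by rw [pow_two, key a ha]⟩
      have := key _ (mul_mem ha hb)
      calc a * b = (a * b)⁻¹ := (inv_eq_of_mul_eq_one_right this).symm
        _ = b * a := by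
          rw [mul_inv_rev, inv_eq_of_mul_eq_one_right (key a ha), inv_eq_of_mul_eq_one_right (key b hb)]
    rw [← h.oz_eq td]
    exact le_oz2 hea le_rfl (H24.EA.le_centralizer hea)
  obtain ⟨γ, h3, hne⟩ := h.exists_ne h1.symm
  have nd : ¬ 𝐐 β ⊓ 𝐐 γ ≤ 𝐐 α := fun hle => by
    have hN := h.norm_of_le h1.symm h3 hne hle
    have h4 : ncl (𝐙' α) (Gv β) ≤ 𝐂(𝐐 β ⊓ 𝐐 α) :=
      ncl_le_centralizer (le_centralizer_comm.1 (inf_le_right.trans (h.Q_cent α))) hN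
    have h5 := h.res_le_ncl h1.symm ((h.Z_le_Q α).trans (h.Q_le_inf' h1.symm)) hn
    refine h.not_K_cent β ((res_res (Gv β)).ge.trans (res_le_centralizer_of_commutator_le
      ((isPGroup_pCoreOf 2 _).to_le (inf_le_left : 𝐐 β ⊓ 𝐐 α ≤ _)) (commutator_le.2 fun q hq k hk => ?_) (h5.trans h4)))
    have hk' := res_le _ hk
    rw [commutatorElement_def, mul_assoc, mul_assoc, ← mul_assoc k]
    have m := conj_mem_of_mem_normalizer (G_norm_Q β hk') (inv_mem hq)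
    by_cases a : q ∈ 𝐐 α
    · exact mul_mem ⟨hq, a⟩ (conj_mem_of_mem_normalizer (hN hk') (inv_mem ⟨hq, a⟩))
    · refine ⟨mul_mem hq m, h.le2Q h1.symm q hq _ m a fun e => a ?_⟩
      have := H69.conj_mem_of_mem_normalizer' (hN hk') (a := k * q⁻¹ * k⁻¹) ⟨m, e⟩
      simpa [mul_assoc] using this.2
  obtain ⟨t, ht1, ht2⟩ := exists_not_mem_of_not_le nd
  have e1 := (h.le2Q h1.symm).card_le
  have e2 := ((h.le2Q h3).mono_right (inf_le_right : 𝐐 α ⊓ 𝐐 β ≤ 𝐐 β)).card_le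
  have e3 : Nat.card (𝐐 γ ⊓ (𝐐 α ⊓ 𝐐 β) : Subgroup X) ≤ Nat.card (𝐙' β) :=
    card_le_of_le fun x hx => h.mem_ZB h1 ht (h.Z_le_oz α (ea α h1.symm hx.2.1)) (h.Q_le_inf' h1 ht1.1) ht2
      (h.commQ (ea γ h3 hx.1) ht1.2)
  have e4 := card_le_of_le (h.Z_le_Q α)
  have e4' := card_le_of_le (ea α h1.symm)
  have e5 := h.card_Q h1
  have e6 := (h.we h1).card_inf
  rw [h.card_ZA ht (tyB h1 ht)] at e4 e4'
  have e7 : Nat.card (𝐙' β) ≤ 4 := Nat.le_of_mul_le_mul_right (c := Nat.card (𝐙' β)) (by omega) Nat.card_pos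
  have := Nat.mul_le_mul e7 e7
  omega

end GA

structure GB (P₁ P₂ : Subgroup X) (b : ℕ) : Prop extends GA P₁ P₂ where
  hm : ∀ δ μ : CosetVertex P₁ P₂, (cosetGraph P₁ P₂).dist δ μ < b → Zv (Gv δ) ≤ 𝐎(Gv μ)

namespace GB

variable {b : ℕ} {α β γ δ μ ν : CosetVertex P₁ P₂} {p q : ℤ → CosetVertex P₁ P₂}

theorem zl (h : GB P₁ P₂ b) (hp : Line p) {i j : ℤ} (e : (i - j).natAbs < b) : 𝐙' (p i) ≤ 𝐐 (p j) :=
  h.hm _ _ ((h.dist_line hp i j).trans_lt e)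

theorem zl1 (h : GB P₁ P₂ b) (hp : Line p) {i j : ℤ} (h1 : (Γ).Adj (p i) μ) (e : (i - j).natAbs + 1 < b) :
    𝐙' μ ≤ 𝐐 (p j) :=
  h.hm _ _ (by have := h.dist_le h1.symm (p j); have := h.dist_line hp i j; omega)

theorem vl (h : GB P₁ P₂ b) (hp : Line p) {i j : ℤ} (e : (i - j).natAbs + 1 < b) : Vv (p i) ≤ 𝐐 (p j) :=
  V_le fun μ h1 => h.zl1 hp h1 e

theorem ql (h : GB P₁ P₂ b) (hp : Line p) {i j : ℤ} (e : j = i + 1 ∨ i = j + 1) : 𝐐 (p i) ≤ Gv (p j) :=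
  h.Q_le (hp.adj e)

theorem V_le_Q (h : GB P₁ P₂ b) (hb : 2 ≤ b) (δ : CosetVertex P₁ P₂) : Vv δ ≤ 𝐐 δ :=
  V_le fun μ h1 => h.hm _ _ (by rw [SimpleGraph.dist_eq_one_iff_adj.2 h1.symm]; omega)

theorem not_norm_V (h : GB P₁ P₂ b) (hb : 2 ≤ b) (h1 : (Γ).Adj α β) : ¬ Gv α ≤ 𝐍(Vv β) := fun h2 =>
  h.Z_ne_bot α (eq_bot_iff.2 ((Z_le_V h1.symm).trans
    (h.core h1 ((h.V_le_Q hb β).trans (h.Q_le_inf' h1)) h2 (G_norm_V β)).le))

theorem even_crit (h : GB P₁ P₂ b) (hb : 2 ≤ b) (he : b % 2 = 0) (hp : Line p) (ht : ty (p 0) = true)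
    (hc : ¬ 𝐙' (p 0) ≤ 𝐐 (p b)) :
    ¬ 𝐙' (p b) ≤ 𝐐 (p 0) ∧ Nat.card (𝐙' (p 1)) = 2 ∧ 𝐙' (p 1) ≤ 𝐙' (p (b - 1)) := by
  have tb : ty (p b) = true := (hp.ty_even (by omega)).trans ht
  have a0 := hp.adj (i := 0) (j := 1) (by omega)
  have ab := hp.adj (i := b) (j := b - 1) (by omega)
  have z0 : 𝐙' (p 0) ≤ Gv (p b) ⊓ Gv (p (b - 1)) := (h.zl hp (by omega)).trans (h.Q_le_inf' ab)
  have zb : 𝐙' (p b) ≤ Gv (p 0) ⊓ Gv (p 1) := (h.zl hp (by omega)).trans (h.Q_le_inf' a0)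
  have hs : ¬ 𝐙' (p b) ≤ 𝐐 (p 0) := fun h1 =>
    hc ((le_inf (z0.trans inf_le_left) (le_centralizer_comm.1 (h1.trans (h.Q_cent _)))).trans (h.centA tb))
  obtain ⟨t, t1, t2⟩ := exists_not_mem_of_not_le hs
  obtain ⟨x, x1, x2⟩ := exists_not_mem_of_not_le hc
  have key : ∀ w ∈ 𝐙' (p 0), Commute w t → w ∈ 𝐙' (p 1) := fun w hw e =>
    h.mem_ZB a0 ht (h.Z_le_oz _ hw) (zb t1) t2 e
  have e1 := ((h.le2 ab).mono_right z0).card_le
  have e2 : Nat.card (𝐐 (p b) ⊓ 𝐙' (p 0) : Subgroup X) ≤ Nat.card (𝐙' (p 1)) :=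
    card_le_of_le fun w hw => key w hw.2 (h.commQ t1 hw.1).symm
  rw [h.card_ZA ht (GA.tyB a0 ht)] at e1
  have e3 : Nat.card (𝐙' (p 1)) ≤ 2 := Nat.le_of_mul_le_mul_right (c := Nat.card (𝐙' (p 1))) (by omega) Nat.card_pos
  have e4 := le_antisymm e3 (h.two_le _)
  refine ⟨hs, e4, le_of_card_two e4 (h.comm_memZ a0 ht x1 (zb t1)) (fun e => x2 ?_) ?_⟩
  · exact h.zl hp (by omega) (key x x1 (commutatorElement_eq_one_iff_commute.1 e))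
  · rw [← commutatorElement_inv]
    exact inv_mem (h.comm_memZ ab tb t1 (z0 x1))

theorem not_even (h : GB P₁ P₂ b) (hb : 4 ≤ b) (he : b % 2 = 0) (hp : Line p) (ht : ty (p 0) = true)
    (hc : ¬ 𝐙' (p 0) ≤ 𝐐 (p b)) : False := by
  obtain ⟨hs, hn, hz⟩ := h.even_crit (by omega) he hp ht hc
  have key : ∀ r : ℤ → CosetVertex P₁ P₂, Line r → (∀ i, -1 ≤ i → r i = p i) → 𝐙' (r (-2)) ≤ 𝐐 (p (b - 2)) := by
    intro r hr e
    by_contra h1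
    have := (h.even_crit (by omega) he (hr.shift (-2)) ((hr.ty_even (i := 0) (by omega)).trans ((e 0 (by omega)) ▸ ht))
      (by rw [e (b + -2) (by omega)]; exact h1)).2.2
    simp only [e (1 + -2) (by omega), e (b - 1 + -2) (by omega)] at this
    have tb2 : ty (p (b - 2)) = true := (hp.ty_even (by omega)).trans ht
    refine hc (le_trans (h.ZA_le (hp.adj (j := 1) (by omega)) (hp.adj (j := 1 + -2) (by omega)) (hp.ne (by omega)) ht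
      (hz.trans (h.ZB_le (hp.adj (by omega)) tb2)) (this.trans (h.ZB_le (hp.adj (by omega)) tb2))) (h.zl hp (by omega)))
  have h1 : Vv (p (-1)) ≤ 𝐐 (p (b - 2)) := V_le fun μ hμ => by
    by_cases e : μ = p (-1 + 1)
    · rw [e]; exact h.zl hp (by omega)
    · obtain ⟨r, hr, r1, r2⟩ := h.branchL hp (-1) hμ e
      rw [← r2]
      exact key r hr r1
  have tb : ty (p b) = true := (hp.ty_even (by omega)).trans ht
  have ab := hp.adj (i := b) (j := b - 1) (by omega)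
  have am := hp.adj (i := 0) (j := -1) (by omega)
  have h2 : ¬ Vv (p (-1)) ≤ 𝐐 (p (b - 1)) := fun h2 => by
    obtain ⟨t, t1, t2⟩ := exists_not_mem_of_not_le hs
    have tm : t ∈ Gv (p 0) ⊓ Gv (p 1) := h.Q_le_inf' (hp.adj (by omega)) (h.zl hp (by omega) t1)
    refine h.not_norm_V (by omega) am (h.gen_mem am (inf_le_right.trans (G_norm_V _)) tm.1
      (h.smul_ne (hp.adj (by omega)) am (hp.ne (by omega)) tm t2).1 (mem_normalizer_of_cj_le ?_))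
    have h3 : Vv (p (-1)) ≤ 𝐙' (p 0) ⊔ (𝐐 (p b) ⊓ Vv (p (-1))) :=
      ((h.le2 ab).mono_right (h2.trans (h.Q_le_inf' ab))).le_of_not_le le_sup_right (Z_le_V am.symm) hc le_sup_left
    refine (cj_mono t h3).trans ?_
    rw [cj_sup, cj_eq_of_mem_normalizer (G_norm_Z _ tm.1), cj_eq_of_mem_centralizer (A := 𝐐 (p b) ⊓ Vv (p (-1))) fun s hs => (h.commQ t1 hs.1).eq.symm]
    exact sup_le (Z_le_V am.symm) inf_le_right
  obtain ⟨a, a1, a2⟩ := exists_not_mem_of_not_le h2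
  obtain ⟨x, x1, x2⟩ := exists_not_mem_of_not_le hc
  obtain ⟨k, rfl⟩ : ∃ k, b = k + 1 := ⟨b - 1, by omega⟩
  have e0 : ((k + 1 : ℕ) : ℤ) - 1 = k := by omega
  rw [e0] at a2
  have tr : Tr P₁ P₂ (k + 1) := h.tr fun t => by
    cases t
    · refine ⟨p, hp, by rw [hp.ty_odd (i := 0) (by omega), ht]; rfl, a, fun i i1 i2 => ?_, a2⟩
      rcases (by omega : i = k ∨ i < k) with rfl | i3
      · exact h.ql hp (by omega) (h1 a1)
      · exact h.ql hp (i := i - 1) (by omega) (h.vl hp (by omega) a1)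
    · refine ⟨_, hp.shift 1, tb, x, fun i i1 i2 => h.ql hp (i := i) (by omega) (h.zl hp (by omega) x1), x2⟩
  refine tr.crit le_rfl hp (hp.shift (-2)) (hp.ty_even (by omega)) hc ?_
  simpa [← sub_eq_add_neg] using key p hp fun _ _ => rfl

theorem bound_two (h : GB P₁ P₂ 2) (hp : Line p) (ht : ty (p 0) = true) (hc : ¬ 𝐙' (p 0) ≤ 𝐐 (p (2 : ℕ))) :
    Nat.card (Gv (p 0) ⊓ Gv (p 1) : Subgroup X) ≤ 128 := by
  obtain ⟨-, hn, -⟩ := h.even_crit le_rfl rfl hp ht hc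
  have a0 := hp.adj (i := 0) (j := 1) (by omega)
  set α := p 0
  set β := p 1
  have tβ := GA.tyB a0 ht
  have crit : ∀ μ ν, (Γ).Adj β μ → (Γ).Adj β ν → μ ≠ ν → ∀ x ∈ 𝐙' μ, x ∉ 𝐙' β → x ∉ 𝐐 ν := by
    intro μ ν h1 h2 hne x hx hxZ hxQ
    obtain ⟨q, hq, q0, q1⟩ := h.exists_line h1.symm 0
    obtain ⟨r, hr, r1, r2⟩ := h.branch hq (0 + 1) (q1 ▸ h2) (μ := ν) (by simpa [q0] using hne.symm)
    have r0 : r 0 = μ := (r1 0 (by omega)).trans q0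
    refine h.tr_two.crit le_rfl hp hr (by rw [r0, GA.tyA h1 tβ]; exact ht) hc ?_
    rw [r0, show r (2 : ℕ) = ν from r2]
    exact (h.le2Z h1.symm (GA.tyA h1 tβ) hn).le_of_mem (inf_le_left.trans ((h.ZB_le h2.symm (GA.tyA h2 tβ)).trans
      (h.Z_le_Q _))) hx hxZ hxQ
  obtain ⟨γ, h2, n1⟩ := h.exists_ne a0.symm
  obtain ⟨δ, h3, n2, n3⟩ := h.exists_third a0.symm h2 n1
  obtain ⟨s, s1, s2⟩ := exists_not_mem_of_not_le (h.not_ZA_le (GA.tyA h2 tβ) tβ)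
  obtain ⟨t, t1, t2⟩ := exists_not_mem_of_not_le (h.not_ZA_le (GA.tyA h3 tβ) tβ)
  have hV := h.V_le_Q le_rfl β
  have sV := Z_le_V h2 s1
  have tV := Z_le_V h3 t1
  have cV := mul_mem sV tV
  have cQ : s * t ∈ 𝐐 α := h.le2 a0 s (h.Q_le_inf' a0 (hV sV)) t (h.Q_le_inf' a0 (hV tV))
    (crit _ _ h2 a0.symm n1 s s1 s2) (crit _ _ h3 a0.symm n2 t t1 t2)
  have hK : ⁅Ev α, 𝐊 α⁆ ≤ 𝐙' α := by
    have hVn : ¬ Vv β ≤ 𝐐 α := fun e => crit _ _ h2 a0.symm n1 s s1 s2 (e sV)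
    refine (commutator_mono le_rfl (h.res_le_ncl a0 (hV.trans (h.Q_le_inf' a0)) hVn)).trans
      (h.comm_K_le a0 (hV.trans (h.Q_le_inf' a0)) hVn (G_norm_E α) (G_norm_Z α) ?_)
    rw [Subgroup.commutator_comm]
    exact (commutator_mono le_rfl (E_le' a0)).trans ((h.comm_V tβ).trans (h.ZB_le a0 ht))
  have ea := h.ea_of_comm ht (E_le α) hK
  have cE : s * t ∉ Ev α := fun e => t2 (by
    refine h.mem_ZB h3.symm (GA.tyA h3 tβ) (h.Z_le_oz _ t1) (h.Q_le_inf' h3.symm (hV sV))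
      (crit _ _ h2 h3 n3.symm s s1 s2) (commutatorElement_eq_one_iff_commute.1 ?_).symm
    rw [(comm_inv (h.sq s1) (h.sq t1)).2.2, ← pow_two]
    exact H24.EA.pow_eq_one ea e)
  have hZE : 𝐙' α ≤ Ev α := fun x hx => mem_E.2 ⟨h.Z_le_Q _ hx, fun μ hμ =>
    h.hm _ _ (by rw [SimpleGraph.dist_eq_one_iff_adj.2 hμ]; omega) hx⟩
  refine h.bound a0 ht hn (c := s * t) (le2_of_comm (fun e he => ?_) hn) ?_
  · rw [← commutatorElement_inv]
    exact inv_mem (h.comm_V' tβ cV (E_le' a0 he))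
  · exact h.le_Z_of_cent a0 ht (le_inf (fun x hx => mem_centralizer_singleton_iff.2 (h.commQ hx cQ)) hZE)
      inf_le_right ((commutator_mono inf_le_right le_rfl).trans hK)
      (inf_le_right.trans (H24.EA.le_centralizer ea)) cQ (hV cV) cE inf_le_left

end GB

end H3.G3
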