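import Mathlib
import Cfsg.Agent.Base
import Cfsg.Agent.Lib.Gold3.Even

/-!
Amalgams of type `(S₃, S₃)` with `Ω₁Z(T)` central in the second group: odd critical distance, all arcs are critical.
-/

set_option autoImplicit false
set_option linter.unusedSectionVars false
set_option linter.unusedVariables false

namespace H3.G3

open Subgroup H69 H70 Cfsg MulAction
open scoped commutatorElement Pointwise

variable {X : Type*} [Group X] [Finite X] {P₁ P₂ : Subgroup X}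

local notation "Γ" => cosetGraph P₁ P₂
local notation "𝐐" δ:max => 𝐎(Gv δ)
local notation "𝐙'" δ:max => Zv (Gv δ)
local notation "𝐊" δ:max => 𝐑(2, Gv δ)

structure Crit (b : ℕ) (p : ℤ → CosetVertex P₁ P₂) : Prop where
  line : Line p
  ty : ty (p 0) = true
  nle : ¬ 𝐙' (p 0) ≤ 𝐐 (p b)

structure GO (P₁ P₂ : Subgroup X) (b : ℕ) : Prop extends GB P₁ P₂ b where
  hb : 3 ≤ b
  ho : b % 2 = 1
  ex : ∃ p : ℤ → CosetVertex P₁ P₂, Crit b p

theorem Line.tyA {p : ℤ → CosetVertex P₁ P₂} (hp : Line p) (ht : ty (p 0) = true) {i : ℤ} (e : i % 2 = 0) :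
    ty (p i) = true := (hp.ty_even (by omega)).trans ht

theorem Line.tyB {p : ℤ → CosetVertex P₁ P₂} (hp : Line p) (ht : ty (p 0) = true) {i : ℤ} (e : i % 2 = 1) :
    ty (p i) = false := by rw [hp.ty_odd (i := 0) (by omega), ht]; rfl

namespace GO

variable {b : ℕ} {α β γ δ μ ν : CosetVertex P₁ P₂} {p q : ℤ → CosetVertex P₁ P₂}

theorem z2 (h : GO P₁ P₂ b) (h1 : (Γ).Adj β μ) (h2 : (Γ).Adj β ν) : 𝐙' μ ≤ 𝐐 ν :=
  h.hm _ _ (by
    have := h.dist_le h1.symm ν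
    rw [SimpleGraph.dist_eq_one_iff_adj.2 h2] at this
    have := h.hb
    omega)

theorem V_ea (h : GO P₁ P₂ b) (β : CosetVertex P₁ P₂) : IsElementaryAbelian 2 (Vv β) :=
  H24.EA.iSup (fun μ => h.Z_ea _) fun μ ν => (h.z2 μ.2 ν.2).trans (h.Q_cent _)

theorem VQ (h : GO P₁ P₂ b) (β : CosetVertex P₁ P₂) : Vv β ≤ 𝐐 β := h.V_le_Q (by have := h.hb; omega) β

theorem VQ' (h : GO P₁ P₂ b) (h1 : (Γ).Adj β μ) : Vv β ≤ 𝐐 μ := V_le fun ν h2 => h.z2 h2 h1

theorem sqV (h : GO P₁ P₂ b) {x : X} (hx : x ∈ Vv β) : x * x = 1 := by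
  rw [← pow_two]; exact H24.EA.pow_eq_one (h.V_ea β) hx

theorem nd (h : GO P₁ P₂ b) (ht : ty β = false) (h1 : (Γ).Adj β α) (h2 : (Γ).Adj β γ) (hne : γ ≠ α) :
    ¬ 𝐐 β ⊓ 𝐐 γ ≤ 𝐐 α := fun hle => by
  have hb := h.hb
  have ho := h.ho
  have hN := h.norm_of_le h1 h2 hne hle
  obtain ⟨p, hp, tp, hc⟩ := h.ex
  obtain ⟨x0, x1, x2⟩ := exists_not_mem_of_not_le hc
  obtain ⟨g, rfl⟩ := exists_smul_of_ty ((hp.tyB tp (i := b) (by omega)).trans ht.symm)
  have ab := H68.adj_smul (hp.adj (i := b) (j := b - 1) (by omega)) g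
  have vm : g * x0 * g⁻¹ ∈ Gv (g • p b) ⊓ Gv (g • p (b - 1)) :=
    h.Q_le_inf' ab (conj_mem_Q.2 (h.zl hp (by omega) x1))
  have vQ : g * x0 * g⁻¹ ∉ 𝐐 (g • p b) := fun e => x2 (conj_mem_Q.1 e)
  have v2 : g * x0 * g⁻¹ * (g * x0 * g⁻¹) = 1 := by
    rw [conj_mul, h.sq x1, mul_one, mul_inv_cancel]
  generalize g * x0 * g⁻¹ = v at vm vQ v2
  generalize g • p (b - 1) = ν at ab vm
  generalize g • p b = β at *
  obtain ⟨μ, h3, n3⟩ := h.exists_ne ab
  obtain ⟨k, hk, rfl⟩ := H68.exists_stabilizer_smul_eq h1 h3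
  have hD : Gv β ≤ 𝐍(𝐐 β ⊓ 𝐐 (k • α)) := by
    rw [O_Gv_smul, ← cj_eq_of_mem_normalizer (G_norm_Q β hk), ← cj_inf, cj_eq_of_mem_normalizer (hN hk)]
    exact hN
  generalize k • α = μ at *
  have vi : v⁻¹ = v := inv_eq_of_mul_eq_one_right v2
  refine h.not_norm_Z h3.symm (h.gen_mem h3 (inf_le_right.trans (G_norm_Z μ)) vm.1
    (h.smul_ne ab h3 n3 vm vQ).1 (mem_normalizer_of_cj_le fun y hy => ?_))
  obtain ⟨x, hx, rfl⟩ := mem_cj'.1 hy
  have xV := Z_le_V h3 hx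
  have xV' := H69.conj_mem_of_mem_normalizer (G_norm_V β vm.1) xV
  have cm : Commute x (v * x * v⁻¹) := H24.EA.comm (h.V_ea β) xV xV'
  have key : x * (v * x * v⁻¹) ∈ 𝐙' β := by
    rw [(h.ZB_eq ab.symm (GA.tyA ab ht)).1]
    refine mem_oz2.2 ⟨h.Q_le_inf' ab.symm (h.VQ β (mul_mem xV xV')), le_centralizer_singleton_iff.1 ?_,
      by rw [pow_two, h.sqV (mul_mem xV xV')]⟩
    refine (h.le2' ab.symm).le_of_mem (fun q hq => mem_centralizer_singleton_iff.2 ?_) ⟨vm.2, vm.1⟩ vQ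
      (mem_centralizer_singleton_iff.2 ?_)
    · have hq1 := hq.1
      have hq2 := H69.conj_mem_of_mem_normalizer' (G_norm_Q β vm.1) hq1
      have hd : q⁻¹ * (v⁻¹ * q * v) ∈ 𝐐 μ := by
        by_cases a : q ∈ 𝐐 μ
        · exact mul_mem (inv_mem a) (H69.conj_mem_of_mem_normalizer' (hD vm.1) (a := q) ⟨hq1, a⟩).2
        · refine (h.le2Q h3).inv_mul hq1 hq2 a fun e => a ?_
          have := H69.conj_mem_of_mem_normalizer (hD vm.1) (a := v⁻¹ * q * v) ⟨hq2, e⟩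
          simpa [mul_assoc] using this.2
      have z1 := h.comm_V' ht xV hq1
      have e1 : ⁅x, v⁻¹ * q * v⁆ = ⁅x, q⁆ := by
        have : v⁻¹ * q * v = q * (q⁻¹ * (v⁻¹ * q * v)) := by group
        rw [this, comm_mul_right (by rw [(h.commQ hx hd).commutator_eq]; exact Commute.one_right _),
          (h.commQ hx hd).commutator_eq, mul_one]
      have e2 : ⁅v * x * v⁻¹, q⁆ = ⁅x, q⁆ := by
        have : ⁅v * x * v⁻¹, q⁆ = v * ⁅x, v⁻¹ * q * v⁆ * v⁻¹ := by simp only [commutatorElement_def]; group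
        rw [this, e1, ← (h.commB ht z1 vm.1).eq, mul_inv_cancel_right]
      refine (commutatorElement_eq_one_iff_commute.1 ?_).eq.symm
      rw [comm_mul_left (by rw [e2]; exact (h.commB ht z1 (Q_le_G β (h.VQ β xV))).symm), e2, h.sq z1]
    · calc v * (x * (v * x * v⁻¹)) = (v * x * v⁻¹) * ((v * v) * x) * v⁻¹ := by group
        _ = _ := by rw [v2, one_mul, ← cm.eq, vi]
  exact (mul_mem_cancel_left hx).1 (h.ZB_le h3.symm (GA.tyA h3 ht) key)

theorem ii (h : GO P₁ P₂ b) (ht : ty β = false) (h1 : (Γ).Adj β α) (h2 : (Γ).Adj β γ) (hne : γ ≠ α) {x : X}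
    (hx : x ∈ 𝐙' α) (hx' : x ∈ 𝐙' γ) : x ∈ 𝐙' β := by
  obtain ⟨t, t1, t2⟩ := exists_not_mem_of_not_le (h.nd ht h1 h2 hne)
  exact h.mem_ZB h1.symm (GA.tyA h1 ht) (h.Z_le_oz _ hx) (h.Q_le_inf' h1.symm t1.1) t2 (h.commQ hx' t1.2)

theorem tr_of (h : GO P₁ P₂ b) (hc : Crit b p) {u : X} (h1 : ∀ i : ℤ, 0 ≤ i → i ≤ b → u • p i = p i)
    (h2 : u ∉ 𝐐 (p 0)) : Tr P₁ P₂ (b + 1) := by
  have hb := h.hb
  have ho := h.ho
  obtain ⟨hp, tp, hc⟩ := hc
  obtain ⟨x, x1, x2⟩ := exists_not_mem_of_not_le hc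
  refine h.tr fun t => ?_
  cases t
  · exact ⟨p, hp, hp.tyB tp (by omega), x, fun i i1 i2 => h.ql hp (i := i - 1) (by omega) (h.zl hp (by omega) x1), x2⟩
  · exact ⟨_, hp.rev b, by simpa using tp, u, fun i i1 i2 => h1 _ (by omega) (by omega), by simpa using h2⟩

/-- an element of `Z_{b+1}` commuting with an element of `Z_0 \ Q_b` lies in `Z_b`. -/
theorem mem_of_comm (h : GO P₁ P₂ b) (hp : Line p) (tp : ty (p 0) = true) {x u : X} (x1 : x ∈ 𝐙' (p 0))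
    (x2 : x ∉ 𝐐 (p b)) (hu : u ∈ 𝐙' (p (b + 1))) (hxu : ⁅x, u⁆ ∈ 𝐙' (p b)) : u ∈ 𝐙' (p b) := by
  have hb := h.hb
  have ho := h.ho
  have tb := hp.tyB tp (i := b) (by omega)
  have ab := hp.adj (i := b) (j := b - 1) (by omega)
  have ab' := hp.adj (i := b) (j := b + 1) (by omega)
  have xm := h.Q_le_inf' ab (h.zl hp (by omega) x1)
  refine h.ii tb ab' (adj_smul_of_mem ab' xm.1) (h.smul_ne ab ab' (hp.ne (by omega)) xm x2).1 hu ?_
  have e : u = ⁅x, u⁆⁻¹ * (x * u * x⁻¹) := by rw [commutatorElement_def]; group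
  rw [e]
  exact mul_mem (inv_mem (h.ZB_le (adj_smul_of_mem ab' xm.1).symm (GA.tyA (adj_smul_of_mem ab' xm.1) tb) hxu))
    (conj_mem_Z.2 hu)

theorem o3 (h : GO P₁ P₂ b) (hc : Crit b p) : 𝐙' (p (b + 1)) ⊓ 𝐐 (p 1) ≤ 𝐐 (p 0) := by
  have hb := h.hb
  have ho := h.ho
  by_contra hn
  obtain ⟨u, u1, u2⟩ := exists_not_mem_of_not_le hn
  have tr := h.tr_of hc (u := u) (fun i i1 i2 => by
    rcases (by omega : i = 0 ∨ 0 < i) with rfl | i3
    · exact h.ql hc.line (by omega) u1.2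
    · exact h.ql hc.line (i := i + 1) (by omega) (h.zl hc.line (by omega) u1.1)) u2
  obtain ⟨hp, tp, hc⟩ := hc
  have t1 := hp.tyB tp (i := 1) (by omega)
  have hn2 : ¬ Nat.card (𝐙' (p 1)) ≤ 2 := fun e => by
    have e' := le_antisymm e (h.two_le _)
    have tb := hp.tyB tp (i := b) (by omega)
    rw [GA.card_Z_eq (t1.trans tb.symm)] at e'
    have c := tr.crit (Nat.le_succ b) hp (hp.rev (b + 1)) (tp.trans (hp.tyA tp (by omega)).symm) hc
    simp only [sub_zero, add_sub_cancel_left] at c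
    by_cases a : u ∈ 𝐙' (p b)
    · exact u2 (h.zl hp (by omega) (h.ZB_le (hp.adj (i := b - 1) (by omega)) (hp.tyA tp (by omega)) a))
    · exact c ((h.le2Z (hp.adj (j := b) (by omega)) (hp.tyA tp (by omega)) e').le_of_mem
        (inf_le_left.trans (h.zl hp (by omega))) u1.1 a u1.2)
  have k1 : ∀ q : ℤ → CosetVertex P₁ P₂, Line q → ty (q 0) = true → Le2 (𝐙' (q b)) (𝐙' (q 1)) := by
    intro q hq tq
    obtain ⟨g, hg⟩ := tr (b + 1) le_rfl p q hp hq (tp.trans tq.symm)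
    have a0 := hp.adj (i := 0) (j := 1) (by omega)
    have ab := hp.adj (i := b) (j := b - 1) (by omega)
    have ab' := hp.adj (i := b + 1) (j := b) (by omega)
    rw [← hg b (by omega) (by push_cast; omega), ← hg 1 (by omega) (by push_cast; omega), Z_Gv_smul, Z_Gv_smul]
    refine Le2.cj (fun z1 m1 z2 m2 n1 n2 => ?_) g
    have um := h.Q_le_inf' a0 u1.2
    have cQ : ∀ w ∈ 𝐐 (p b), ⁅w, u⁆ ∈ 𝐙' (p b) := fun w hw => by
      rw [← commutatorElement_inv]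
      exact inv_mem (h.comm_memZ ab' (hp.tyA tp (by omega)) u1.1 (h.Q_le_inf' ab' hw))
    obtain ⟨w1, hw1, rfl⟩ := h.comm_surj a0 tp um u2 m1
    obtain ⟨w2, hw2, rfl⟩ := h.comm_surj a0 tp um u2 m2
    rw [← comm_mul_left (h.commQ hw2 (h.Z_le_Q _ (h.ZB_le a0 tp m1)))]
    exact cQ _ (h.le2 ab _ (h.Q_le_inf' ab (h.zl hp (by omega) hw2)) _ (h.Q_le_inf' ab (h.zl hp (by omega) hw1))
      (fun e => n2 (cQ _ e)) fun e => n1 (cQ _ e))
  have small : ∀ {U : Subgroup X}, Le2 U (𝐙' (p 1)) → U ⊓ 𝐙' (p 1) ≠ ⊥ := fun hU e => hn2 (by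
    have := hU.card_le
    rwa [e, Subgroup.card_bot] at this)
  rcases (by omega : b = 3 ∨ 5 ≤ b) with rfl | hb5
  · exact small (k1 p hp tp) (h.ZB_inf (hp.adj (i := 2) (by omega)) (hp.adj (by omega)) (hp.ne (by omega))
      (hp.tyA tp (by omega)))
  have k2 : ∀ q : ℤ → CosetVertex P₁ P₂, Line q → ty (q 0) = true → 𝐙' (q 1) ≤ 𝐙' (q (b - 1)) := by
    intro q hq tq z hz
    obtain ⟨r, hr, r1, r2⟩ := h.fork hq (b - 1)
    rw [sub_add_cancel] at r2
    have l1 := k1 q hq tq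
    have l2 := k1 r hr (r1 0 (by omega) ▸ tq)
    rw [r1 1 (by omega)] at l2
    have tb1 := hq.tyA tq (i := b - 1) (by omega)
    have a1 := hq.adj (i := b - 1) (j := b) (by omega)
    have a2 : (Γ).Adj (q (b - 1)) (r b) := r1 (b - 1) le_rfl ▸ hr.adj (by omega)
    by_cases m1 : z ∈ 𝐙' (q b)
    · exact h.ZB_le a1 tb1 m1
    obtain ⟨a, ha, ha'⟩ : ∃ a ∈ 𝐙' (r b) ⊓ 𝐙' (q 1), a ∉ 𝐙' (q b) := exists_not_mem_of_not_le fun e => hn2 (by
      have := l2.card_le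
      rw [eq_bot_iff.2 ((le_inf e inf_le_left).trans (h.ZB_inf a1 a2 r2 tb1).le), Subgroup.card_bot] at this
      rwa [GA.card_Z_eq (t1.trans (hq.tyB tq (i := 1) (by omega)).symm)])
    exact (mul_mem_cancel_right (h.ZB_le a2 tb1 ha.1)).1 (h.ZB_le a1 tb1 (l1 z hz a ha.2 m1 ha'))
  have k3 : ∀ q : ℤ → CosetVertex P₁ P₂, Line q → ty (q 0) = true → 𝐙' (q 2) ≤ 𝐙' (q (b - 1)) := by
    intro q hq tq
    obtain ⟨r, hr, r1, r2⟩ := h.forkL hq 2
    have := k2 r hr ((hr.ty_even (i := 2) (by omega)).trans (r1 2 le_rfl ▸ hq.tyA tq (by omega)))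
    rw [r1 (b - 1) (by omega)] at this
    exact h.ZA_le (hq.adj (j := 1) (by omega)) (r1 2 le_rfl ▸ hr.adj (j := 1) (by omega)) r2
      (hq.tyA tq (by omega)) (k2 q hq tq) this
  obtain ⟨r, hr, r1, r2⟩ := h.fork hp (b - 2)
  have := k3 r hr (r1 0 (by omega) ▸ tp)
  rw [r1 2 (by omega)] at this
  rw [show (b : ℤ) - 2 + 1 = b - 1 by omega] at r2
  exact h.not_ZA_le (hp.tyA tp (i := 2) (by omega)) (hp.tyB tp (i := b - 2) (by omega)) fun x hx =>
    h.ii (hp.tyB tp (by omega)) (hp.adj (by omega)) (r1 (b - 2) le_rfl ▸ hr.adj (by omega)) r2 (k3 p hp tp hx) (this hx)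

theorem o3' (h : GO P₁ P₂ b) (hc : Crit b p) : 𝐐 (p 1) ⊓ 𝐙' (p (b + 1)) ≤ 𝐙' (p b) := fun u hu => by
  obtain ⟨x, x1, x2⟩ := exists_not_mem_of_not_le hc.nle
  refine h.mem_of_comm hc.line hc.ty x1 x2 hu.2 ?_
  rw [(h.commQ x1 (h.o3 hc ⟨hu.2, hu.1⟩)).commutator_eq]
  exact one_mem _

theorem n1 (h : GO P₁ P₂ b) (ht : ty β = false) : Nat.card (𝐙' β) = 2 := by
  have hb := h.hb
  have ho := h.ho
  obtain ⟨p, hc⟩ := h.ex
  have e2 := card_le_of_le (h.o3' hc)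
  obtain ⟨hp, tp, hc⟩ := hc
  have a := hp.adj (i := 1) (j := 2) (by omega)
  have e1 := ((h.le2 a).mono_right ((h.zl hp (i := b + 1) (by omega)).trans (h.Q_le_inf' a))).card_le
  have tb := hp.tyB tp (i := b) (by omega)
  rw [h.card_ZA (hp.tyA tp (by omega)) tb] at e1
  rw [GA.card_Z_eq (ht.trans tb.symm)]
  exact le_antisymm (Nat.le_of_mul_le_mul_right (c := Nat.card (𝐙' (p b))) (by omega) Nat.card_pos) (h.two_le _)

theorem l2 (h : GO P₁ P₂ b) (h1 : (Γ).Adj α β) (ht : ty α = true) : Le2 (𝐙' β) (𝐙' α) :=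
  h.le2Z h1 ht (h.n1 (GA.tyB h1 ht))

theorem rev (h : GO P₁ P₂ b) (hc : Crit b p) : Crit b fun i => p (b + 1 - i) := by
  have ho := h.ho
  refine ⟨hc.line.rev _, hc.line.tyA hc.ty (by omega), fun e => ?_⟩
  simp only [sub_zero, add_sub_cancel_left] at e
  exact h.not_ZA_le (hc.line.tyA hc.ty (by omega)) (hc.line.tyB hc.ty (by omega)) ((le_inf e le_rfl).trans (h.o3' hc))

theorem crit_of_V (h : GO P₁ P₂ b) (hp : Line p) (tp : ty (p 0) = true) (hV : ¬ Vv (p 1) ≤ 𝐐 (p b)) : Crit b p := by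
  have hb := h.hb
  refine ⟨hp, tp, fun h0 => hV (V_le fun μ hμ => ?_)⟩
  by_cases e : μ = p (1 + 1)
  · rw [e]; exact h.zl hp (by omega)
  by_cases e' : μ = p 0
  · rwa [e']
  obtain ⟨r, hr, r1, r2⟩ := h.branchL hp 1 hμ e
  have r0 : r 0 = μ := r2
  by_contra hn
  have c : Crit b r := ⟨hr, by rw [r0, GA.tyA hμ (hp.tyB tp rfl)], by rwa [r0, r1 b (by omega)]⟩
  obtain ⟨v, v1, v2⟩ := exists_not_mem_of_not_le (h.rev c).nle
  simp only [sub_zero, add_sub_cancel_left, r1 1 le_rfl, r1 (b + 1) (by omega)] at v1 v2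
  have a := hp.adj (i := 1) (j := 2) (by omega)
  have := h.swap a (hp.adj (j := 0) (by omega)) hμ (hp.ne (by omega)) e e'
    (h.Q_le_inf' a (h.zl hp (by omega) v1)) v2
  refine hn ?_
  rw [← this, Z_Gv_smul]
  exact cj_le_of_mem_normalizer h0 (G_norm_Q _ (h.ql hp (by omega) (h.Z_le_Q _ v1)))

theorem slide (h : GO P₁ P₂ b) (hc : Crit b p) : Crit b fun i => p (i + -2) := by
  have hb := h.hb
  have ho := h.ho
  have hr := h.rev hc
  obtain ⟨hp, tp, hc⟩ := hc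
  refine h.crit_of_V (hp.shift _) (hp.tyA tp (by omega)) fun h1 => ?_
  simp only [show (1 : ℤ) + -2 = -1 by rfl, ← sub_eq_add_neg] at h1
  have am := hp.adj (i := 0) (j := -1) (by omega)
  have a0 := hp.adj (i := 0) (j := 1) (by omega)
  have ab := hp.adj (i := b) (j := b - 1) (by omega)
  have ab2 := hp.adj (i := b - 1) (j := b - 2) (by omega)
  have tm := hp.tyB tp (i := -1) rfl
  have tb1 := hp.tyA tp (i := b - 1) (by omega)
  have h2 : 𝐙' (p (b - 1)) ≤ 𝐐 (p (-1)) := by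
    by_contra e
    have c : Crit b fun i => p (b - 1 - i) := ⟨hp.rev _, by simpa using tb1, by simpa using e⟩
    refine (h.rev c).nle ?_
    simp only [show (b : ℤ) - 1 - (b + 1 - 0) = -2 by omega, show (b : ℤ) - 1 - (b + 1 - b) = b - 2 by omega]
    exact (Z_le_V (hp.adj (by omega))).trans h1
  have h3 : Vv (p (-1)) ≤ 𝐐 (p (b - 1)) := by
    refine fun v hv => h.centA tb1 ⟨h.Q_le ab2.symm (h1 hv), fun w hw => ?_⟩
    by_contra e
    have m1 := h.comm_memZ ab2 tb1 hw (h.Q_le_inf' ab2 (h1 hv))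
    have m2 := inv_mem (h.comm_V' tm hv (h2 hw))
    rw [commutatorElement_inv] at m2
    have := le_of_card_two (h.n1 tm) m2 (fun e' => e (commutatorElement_eq_one_iff_mul_comm.1 e')) m1
    exact hc (h.ZA_le a0 am (hp.ne (by omega)) tp (h.zl hp (by omega)) (this.trans (h.zl hp (by omega))))
  have h4 : 𝐐 (p b) ⊓ Vv (p (-1)) ≤ 𝐐 (p (b + 1)) := by
    by_contra e
    obtain ⟨u, u1, u2⟩ := exists_not_mem_of_not_le e
    have tr := h.tr_of hr (u := u) (fun i i1 i2 => by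
      rcases (by omega : i = 0 ∨ i = 1 ∨ i = 2 ∨ 2 < i) with rfl | rfl | rfl | i3
      · exact h.ql hp (by omega) u1.1
      · exact h.ql hp (by omega) (h3 u1.2)
      · exact h.ql hp (by omega) (h1 u1.2)
      · exact h.ql hp (i := b - i) (by omega) (h.vl hp (by omega) u1.2)) (by simpa using u2)
    refine tr.crit (Nat.le_succ b) hp (hp.shift (-2)) (hp.ty_even (by omega)) hc ?_
    simp only [← sub_eq_add_neg]
    exact (Z_le_V (hp.adj (by omega))).trans h1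
  obtain ⟨v, v1, v2⟩ := exists_not_mem_of_not_le hr.nle
  simp only [sub_zero, add_sub_cancel_left] at v1 v2
  have a1 := hp.adj (i := 1) (j := 2) (by omega)
  have vm := h.Q_le_inf' a1 (h.zl hp (by omega) v1)
  set M := Vv (p 1) ⊔ Vv (p (-1)) with hM
  have hv : v ∈ 𝐍(M) := by
    refine mem_normalizer_of_cj_le ?_
    have h5 : Vv (p (-1)) ≤ 𝐙' (p 0) ⊔ (𝐐 (p b) ⊓ Vv (p (-1))) :=
      ((h.le2 ab).mono_right (h3.trans (h.Q_le_inf' ab))).le_of_not_le le_sup_right (Z_le_V am.symm) hc le_sup_left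
    rw [hM, cj_sup, cj_eq_of_mem_normalizer (G_norm_V _ vm.1)]
    refine sup_le le_sup_left ((cj_mono v h5).trans ?_)
    rw [cj_sup, cj_eq_of_mem_centralizer (A := 𝐐 (p b) ⊓ Vv (p (-1))) fun s hs => (h.commQ v1 (h4 hs)).eq.symm]
    exact sup_le_sup (cj_le_of_mem_normalizer (Z_le_V a0.symm) (G_norm_V _ vm.1)) inf_le_right
  have n0 := (h.smul_ne a1 a0.symm (hp.ne (by omega)) vm v2).1
  have a2 := adj_smul_of_mem a0.symm vm.1
  obtain ⟨q, q1, q2⟩ := exists_not_mem_of_not_le (h.nd (hp.tyB tp rfl) a0.symm a2 n0)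
  have hq : q ∈ 𝐍(M) := by
    rw [← cj_eq_of_mem_normalizer hv, hM, cj_sup, cj_eq_of_mem_normalizer (G_norm_V _ vm.1), ← V_smul]
    exact H69.le_normalizer_sup (inf_le_left.trans ((Q_le_G _).trans (G_norm_V _)))
      (inf_le_right.trans ((h.Q_le (H68.adj_smul am v)).trans (G_norm_V _))) q1
  have qm := h.Q_le_inf' a0 q1.1
  have hT : Gv (p 0) ⊓ Gv (p 1) ≤ 𝐍(M) :=
    (h.le2 a0).le_of_mem (inf_le_left.trans (H69.le_normalizer_sup ((h.Q_le a0).trans (G_norm_V _))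
      ((h.Q_le am).trans (G_norm_V _)))) qm q2 hq
  have hall : ∀ μ, (Γ).Adj (p 0) μ → Vv μ ≤ M := fun μ hμ => by
    obtain ⟨n1, n2⟩ := h.smul_ne a0 am (hp.ne (by omega)) qm q2
    rcases h.four a0 am (adj_smul_of_mem am qm.1) hμ (hp.ne (by omega)) n2 n1 with rfl | rfl | rfl
    · exact le_sup_left
    · exact le_sup_right
    · rw [V_smul]; exact cj_le_of_mem_normalizer le_sup_right hq
  have hbot := h.core a0 (N := M) (sup_le ((h.VQ _).trans (h.Q_le_inf' a0)) ((h.VQ' am.symm).trans (h.Q_le_inf a0)))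
    (le_normalizer_of_cj_le fun g hg => by
      rw [hM, cj_sup, ← V_smul, ← V_smul]
      exact sup_le (hall _ (adj_smul_of_mem a0 hg)) (hall _ (adj_smul_of_mem am hg)))
    (h.gen_mem a0.symm ((inf_comm _ _).le.trans hT) vm.1 n0 hv)
  exact h.Z_ne_bot _ (eq_bot_iff.2 ((Z_le_V a0.symm).trans (le_sup_left.trans hbot.le)))

theorem slide' (h : GO P₁ P₂ b) (hc : Crit b p) : Crit b fun i => p (i + 2) := by
  have := h.rev (h.slide (h.rev hc))
  convert this using 3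
  omega

theorem slide_int (h : GO P₁ P₂ b) (hc : Crit b p) (k : ℤ) : Crit b fun i => p (i + 2 * k) := by
  induction k using Int.induction_on with
  | zero => simpa using hc
  | succ k ih => convert h.slide' ih using 3; omega
  | pred k ih => convert h.slide ih using 3; omega

theorem crit_of_agree (h : GO P₁ P₂ b) (hc : Crit b p) (hq : Line q) (k : ℤ) (e1 : q (2 * k) = p (2 * k))
    (e2 : q (b + 2 * k) = p (b + 2 * k)) : Crit b q := by
  have c := h.slide_int hc k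
  have c' : Crit b fun i => q (i + 2 * k) :=
    ⟨hq.shift _, by simpa [e1] using c.ty, by simpa [e1, e2] using c.nle⟩
  simpa using h.slide_int c' (-k)

theorem all (h : GO P₁ P₂ b) (hq : Line q) (tq : ty (q 0) = true) : Crit b q := by
  obtain ⟨p, hc⟩ := h.ex
  obtain ⟨g, hg⟩ := h.tr_two 1 (by omega) p q hc.line hq (hc.ty.trans tq.symm)
  have c : Crit b fun i => g • p i := ⟨hc.line.smul g, by rw [ty_smul, hc.ty], by
    rw [Z_Gv_smul, O_Gv_smul, cj_le_cj_iff]; exact hc.nle⟩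
  obtain ⟨r, hr, r1, r2⟩ := c.line.glue hq 0 (hg 0 le_rfl (by omega)) (by
    rw [← hg (0 + 1) (by omega) (by omega)]
    exact c.line.ne (by omega))
  have c' := h.crit_of_agree c hr (-b) (r1 _ (by omega)) (r1 _ (by omega))
  exact h.crit_of_agree c' hq 0 (r2 _ (by omega)).symm (r2 _ (by omega)).symm

end GO

end H3.G3
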