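import Mathlib
import Cfsg.Agent.Base
import Cfsg.Agent.Lib.Gold3.Odd

/-!
Amalgams of type `(S₃, S₃)` with `Ω₁Z(T)` central in the second group: odd critical distance, the bound.
-/

set_option autoImplicit false
set_option linter.unusedSectionVars false
set_option linter.unusedVariables false

namespace H3.G3

open Subgroup H69 H70 Cfsg MulAction
open scoped commutatorElement Pointwise

variable {X : Type*} [Group X] [Finite X] {P₁ P₂ : Subgroup X}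

local notation "Γ" => cosetGraph P₁ P₂
local notation "𝐐" δ:max => 𝐎(Gv δ)
local notation "𝐙'" δ:max => Zv (Gv δ)
local notation "𝐊" δ:max => 𝐑(2, Gv δ)

theorem le2_sup_zpowers {U : Subgroup X} {f : X} (hf : f ∈ 𝐍(U)) (h2 : f * f = 1) : Le2 U (U ⊔ zpowers f) := by
  refine le2_of_card_le ?_
  have e := H24.card_sup_mul_card_inf' (A := U) (B := zpowers f) (zpowers_le_of_mem hf)
  have e2 : Nat.card (zpowers f) ≤ 2 := by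
    rw [Nat.card_zpowers]
    exact Nat.le_of_dvd two_pos (orderOf_dvd_of_pow_eq_one (by rw [pow_two, h2]))
  have e3 : 0 < Nat.card (U ⊓ zpowers f : Subgroup X) := Nat.card_pos
  rw [inf_eq_left.2 le_sup_left]
  nlinarith

theorem comm_mul_central {s t z z' : X} (h1 : Commute z t) (h2 : Commute z z') (h3 : Commute z' s) :
    ⁅s * z, t * z'⁆ = ⁅s, t⁆ := by
  calc ⁅s * z, t * z'⁆ = s * (z * (t * z')) * z⁻¹ * (s⁻¹ * z'⁻¹) * t⁻¹ := by rw [commutatorElement_def]; group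
    _ = ⁅s, t⁆ := by
      rw [(h1.mul_right h2).eq, ← h3.inv_inv.eq, commutatorElement_def]; group

def Ys (α β : CosetVertex P₁ P₂) (y : X) : Prop :=
  ∃ μ ν s t, (Γ).Adj β μ ∧ (Γ).Adj β ν ∧ μ ≠ α ∧ ν ≠ α ∧ ν ≠ μ ∧ s ∈ 𝐙' μ ∧ s ∉ 𝐙' β ∧ t ∈ 𝐙' ν ∧ t ∉ 𝐙' β ∧
    y = s * t

theorem Ys.smul {α β : CosetVertex P₁ P₂} {y : X} (h : Ys α β y) (g : X) : Ys (g • α) (g • β) (g * y * g⁻¹) := by
  obtain ⟨μ, ν, s, t, h1, h2, h3, h4, h5, h6, h7, h8, h9, rfl⟩ := h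
  exact ⟨g • μ, g • ν, g * s * g⁻¹, g * t * g⁻¹, H68.adj_smul h1 g, H68.adj_smul h2 g,
    fun e => h3 (smul_left_cancel g e), fun e => h4 (smul_left_cancel g e), fun e => h5 (smul_left_cancel g e),
    conj_mem_Z.2 h6, fun e => h7 (conj_mem_Z.1 e), conj_mem_Z.2 h8, fun e => h9 (conj_mem_Z.1 e), conj_mul.symm⟩

theorem Ys.memV {α β : CosetVertex P₁ P₂} {y : X} (h : Ys α β y) : y ∈ Vv β := by
  obtain ⟨μ, ν, s, t, h1, h2, h3, h4, h5, h6, h7, h8, h9, rfl⟩ := h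
  exact mul_mem (Z_le_V h1 h6) (Z_le_V h2 h8)

/-- `|V_β| = 8`. -/
def N8 (P₁ P₂ : Subgroup X) : Prop :=
  ∀ (α β : CosetVertex P₁ P₂) (y : X), ty β = false → (cosetGraph P₁ P₂).Adj β α → Ys α β y → y ∈ Zv (Gv α)

/-- `|V_β| = 16`. -/
def N16 (P₁ P₂ : Subgroup X) : Prop :=
  ∀ (α β : CosetVertex P₁ P₂) (y : X), ty β = false → (cosetGraph P₁ P₂).Adj β α → Ys α β y → y ∉ Zv (Gv α)

namespace GO

variable {b : ℕ} {α β γ δ μ ν : CosetVertex P₁ P₂} {p q : ℤ → CosetVertex P₁ P₂}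

theorem ys_mul (h : GO P₁ P₂ b) (ht : ty β = false) (ha : (Γ).Adj β α) {y y' : X} (hy : Ys α β y)
    (hy' : Ys α β y') : y * y' ∈ 𝐙' β := by
  obtain ⟨μ, ν, s, t, h1, h2, h3, h4, h5, h6, h7, h8, h9, rfl⟩ := hy
  obtain ⟨μ', ν', s', t', k1, k2, k3, k4, k5, k6, k7, k8, k9, rfl⟩ := hy'
  have c : ∀ {x y}, x ∈ Vv β → y ∈ Vv β → x * y = y * x := H24.EA.comm (h.V_ea β)
  have l1 := h.l2 h1.symm (GA.tyA h1 ht)
  have l2 := h.l2 h2.symm (GA.tyA h2 ht)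
  rcases h.four ha h1 h2 k1 h3 h4 h5 with e | rfl | rfl
  · exact absurd e k3
  · rcases h.four ha h1 h2 k2 h3 h4 h5 with e | e | rfl
    · exact absurd e k4
    · exact absurd e k5
    · rw [mul_assoc, ← mul_assoc t, c (Z_le_V h2 h8) (Z_le_V h1 k6), mul_assoc, ← mul_assoc]
      exact mul_mem (l1 s h6 s' k6 h7 k7) (l2 t h8 t' k8 h9 k9)
  · rcases h.four ha h1 h2 k2 h3 h4 h5 with e | rfl | e
    · exact absurd e k4
    · rw [c (Z_le_V h2 k6) (Z_le_V h1 k8), mul_assoc, ← mul_assoc t, c (Z_le_V h2 h8) (Z_le_V h1 k8), mul_assoc,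
        ← mul_assoc]
      exact mul_mem (l1 s h6 t' k8 h7 k9) (l2 t h8 s' k6 h9 k7)
    · exact absurd e k5

theorem ys_not (h : GO P₁ P₂ b) (ht : ty β = false) {y : X} (hy : Ys α β y) : y ∉ 𝐙' β := by
  obtain ⟨μ, ν, s, t, h1, h2, h3, h4, h5, h6, h7, h8, h9, rfl⟩ := hy
  exact fun e => h7 (h.ii ht h1 h2 h5 h6 ((mul_mem_cancel_right h8).1 (h.ZB_le h2.symm (GA.tyA h2 ht) e)))

theorem dich (h : GO P₁ P₂ b) : N8 P₁ P₂ ∨ N16 P₁ P₂ := by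
  by_contra hn
  simp only [N8, N16, not_or, not_forall, not_not] at hn
  obtain ⟨⟨α, β, y, t1, a1, y1, n1⟩, α', β', y', t2, a2, y2, n2⟩ := hn
  obtain ⟨g, rfl⟩ := exists_smul_of_ty (t1.trans t2.symm)
  obtain ⟨k, hk, rfl⟩ := H68.exists_stabilizer_smul_eq (H68.adj_smul a1 g) a2
  have y3 := (y1.smul g).smul k
  rw [mem_stabilizer_iff.1 hk] at y3
  exact n1 (conj_mem_Z.1 (conj_mem_Z.1 ((mul_mem_cancel_left n2).1
    (h.ZB_le a2.symm (GA.tyA a2 t2) (h.ys_mul t2 a2 y2 y3)))))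

theorem not_Q (h : GO P₁ P₂ b) (hp : Line p) (tp : ty (p 0) = true) {x : X} (x1 : x ∈ 𝐙' (p 0))
    (x2 : x ∉ 𝐙' (p 1)) : x ∉ 𝐐 (p b) := fun e => by
  have hb := h.hb
  exact (h.all hp tp).nle ((h.l2 (hp.adj (j := 1) (by omega)) tp).le_of_mem (inf_le_left.trans (h.zl hp (by omega)))
    x1 x2 e)

theorem ys_comm1 (h : GO P₁ P₂ b) (hp : Line p) (tp : ty (p 0) = true) {x v : X} (x1 : x ∈ 𝐙' (p 0))
    (x2 : x ∉ 𝐙' (p 1)) (v1 : v ∈ 𝐙' (p (b + 1))) (v2 : v ∉ 𝐙' (p b)) : Ys (p 2) (p 1) ⁅x, v⁆ := by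
  have hb := h.hb
  have ho := h.ho
  have v3 := h.not_Q (hp.rev (b + 1)) (hp.tyA tp (by omega)) (x := v) (by simpa using v1) (by simpa using v2)
  simp only [add_sub_cancel_left] at v3
  have a1 := hp.adj (i := 1) (j := 2) (by omega)
  have a0 := hp.adj (i := 1) (j := 0) (by omega)
  have vm := h.Q_le_inf' a1 (h.zl hp (by omega) v1)
  obtain ⟨n1, n2⟩ := h.smul_ne a1 a0 (hp.ne (by omega)) vm v3
  refine ⟨p 0, v • p 0, x, v * x * v⁻¹, a0, adj_smul_of_mem a0 vm.1, hp.ne (by omega), n2, n1, x1, x2,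
    conj_mem_Z.2 x1, fun e => x2 ?_, (comm_inv (h.sq x1) (h.sq v1)).1⟩
  rw [← mem_stabilizer_iff.1 vm.1] at e
  exact conj_mem_Z.1 e

theorem ys_comm2 (h : GO P₁ P₂ b) (hp : Line p) (tp : ty (p 0) = true) {x v : X} (x1 : x ∈ 𝐙' (p 0))
    (x2 : x ∉ 𝐙' (p 1)) (v1 : v ∈ 𝐙' (p (b + 1))) (v2 : v ∉ 𝐙' (p b)) : Ys (p (b - 1)) (p b) ⁅x, v⁆ := by
  have ho := h.ho
  have := h.ys_comm1 (hp.rev (b + 1)) (hp.tyA tp (by omega)) (x := v) (v := x) (by simpa using v1)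
    (by simpa using v2) (by simpa using x1) (by simpa using x2)
  simp only [add_sub_cancel_right, show (b : ℤ) + 1 - 2 = b - 1 by omega] at this
  rwa [← commutatorElement_inv, inv_eq_of_mul_eq_one_right (h.sqV this.memV)]

theorem exZ (h : GO P₁ P₂ b) (hp : Line p) (tp : ty (p 0) = true) (i j : ℤ) (hi : i % 2 = 0) (hj : j % 2 = 1) :
    ∃ x ∈ 𝐙' (p i), x ∉ 𝐙' (p j) := exists_not_mem_of_not_le (h.not_ZA_le (hp.tyA tp hi) (hp.tyB tp hj))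

theorem k16 (h : GO P₁ P₂ b) (hn : N16 P₁ P₂) (ht : ty α = true) (h1 : (Γ).Adj α β) (h2 : (Γ).Adj α γ)
    (hne : γ ≠ β) {y y' : X} (hy : Ys α β y) (hy' : Ys α γ y') : y * y' ∉ 𝐙' α := fun hm => by
  refine hn α β y (GA.tyB h1 ht) h1.symm hy ?_
  rw [← h.oz_eq ht]
  refine mem_oz2.2 ⟨h.VQ' h1.symm hy.memV, fun q hq => ?_, by rw [pow_two, h.sqV hy.memV]⟩
  have k : ∀ {β y}, (Γ).Adj α β → Ys α β y → Ys α β (q * y * q⁻¹) := fun {β y} h1 hy => by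
    have := hy.smul q
    rwa [mem_stabilizer_iff.1 (Q_le_G α hq), mem_stabilizer_iff.1 (h.Q_le h1 hq)] at this
  have m1 := h.ys_mul (GA.tyB h1 ht) h1.symm hy (k h1 hy)
  have m2 := h.ys_mul (GA.tyB h2 ht) h2.symm hy' (k h2 hy')
  have i1 := inv_eq_of_mul_eq_one_right (h.sqV hy.memV)
  have i2 := inv_eq_of_mul_eq_one_right (h.sqV (k h2 hy').memV)
  have c := (h.commQ hm hq).eq
  have e : y * (q * y * q⁻¹) = y' * (q * y' * q⁻¹) := by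
    rw [← i2]
    calc y * (q * y * q⁻¹) = y * (q * (y * y')) * y'⁻¹ * q⁻¹ := by group
      _ = y * y * y' * (q * y' * q⁻¹)⁻¹ := by rw [← c]; group
      _ = _ := by rw [h.sqV hy.memV, one_mul]
  have e1 := h.eq_one h1 h2 hne ht m1 (e ▸ m2)
  calc q * y = y⁻¹ * (y * (q * y * q⁻¹)) * q := by group
    _ = y * q := by rw [e1, i1, mul_one]

theorem not16 (h : GO P₁ P₂ b) (hn : N16 P₁ P₂) : False := by
  have hb := h.hb
  have ho := h.ho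
  obtain ⟨p, hp, tp, -⟩ := h.ex
  obtain ⟨x, x1, x2⟩ := h.exZ hp tp 0 1 rfl rfl
  have t2 := hp.tyA tp (i := 2) rfl
  have a1 := hp.adj (i := 2) (j := 1) (by omega)
  rcases (by omega : b = 3 ∨ 5 ≤ b) with rfl | hb5
  · obtain ⟨v, v1, v2⟩ := h.exZ hp tp ((3 : ℕ) + 1) (3 : ℕ) rfl rfl
    have y1 := h.ys_comm1 hp tp x1 x2 v1 v2
    refine h.k16 hn t2 a1 (hp.adj (j := (3 : ℕ)) (by omega)) (hp.ne (by omega)) y1 (h.ys_comm2 hp tp x1 x2 v1 v2) ?_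
    rw [h.sqV y1.memV]
    exact one_mem _
  obtain ⟨r, hr, r1, r2⟩ := h.forkL hp 2
  have tr : ty (r 0) = true := (hr.ty_even (i := 2) (by omega)).trans (r1 2 le_rfl ▸ t2)
  obtain ⟨x', x1', x2'⟩ := h.exZ hr tr 0 1 rfl rfl
  have a2 : (Γ).Adj (p 2) (r 1) := r1 2 le_rfl ▸ hr.adj (by omega)
  have key : ∀ q : ℤ → CosetVertex P₁ P₂, Line q → (∀ i, i ≤ 3 → q i = p i) →
      ∃ y y', Ys (p 2) (p 1) y ∧ Ys (p 2) (r 1) y' ∧ y * y' ∈ 𝐙' (q b) := by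
    intro q hq e
    have tq : ty (q 0) = true := e 0 (by omega) ▸ tp
    obtain ⟨v, v1, v2⟩ := h.exZ hq tq (b + 1) b (by omega) (by omega)
    obtain ⟨s, hs, s1, s2⟩ := hr.glue hq 2 ((r1 2 le_rfl).trans (e 2 (by omega)).symm) (by
      rw [e _ (by omega), ← r1 _ (by omega)]; exact hr.ne (by omega))
    have ts : ty (s 0) = true := s1 0 (by omega) ▸ tr
    have k1 := h.ys_comm1 hq tq (e 0 (by omega) ▸ x1) (e 1 (by omega) ▸ x2) v1 v2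
    have k2 := h.ys_comm2 hq tq (e 0 (by omega) ▸ x1) (e 1 (by omega) ▸ x2) v1 v2
    have k3 := h.ys_comm1 hs ts (s1 0 (by omega) ▸ x1') (s1 1 (by omega) ▸ x2') (s2 (b + 1) (by omega) ▸ v1)
      (s2 b (by omega) ▸ v2)
    have k4 := h.ys_comm2 hs ts (s1 0 (by omega) ▸ x1') (s1 1 (by omega) ▸ x2') (s2 (b + 1) (by omega) ▸ v1)
      (s2 b (by omega) ▸ v2)
    rw [e 2 (by omega), e 1 (by omega)] at k1
    rw [s1 2 le_rfl, r1 2 le_rfl, s1 1 (by omega)] at k3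
    rw [s2 _ (by omega), s2 _ (by omega)] at k4
    exact ⟨_, _, k1, k3, h.ys_mul (hq.tyB tq (by omega)) (hq.adj (by omega)) k2 k4⟩
  obtain ⟨y0, y0', k1, k2, k3⟩ := key p hp fun _ _ => rfl
  have q1 := h.VQ' a1.symm k1.memV
  have q2 := h.VQ' a2.symm k2.memV
  have l2 := le2_sup_zpowers (G_norm_Z (p 2) (Q_le_G _ (mul_mem q1 q2))) (h.sq k3)
  set P := 𝐙' (p 2) ⊔ zpowers (y0 * y0')
  have cP := l2.card_le
  rw [inf_eq_left.2 le_sup_left] at cP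
  have A : ∀ q : ℤ → CosetVertex P₁ P₂, Line q → (∀ i, i ≤ 3 → q i = p i) → 𝐙' (q b) ≤ P := by
    intro q hq e
    obtain ⟨y, y', m1, m2, m3⟩ := key q hq e
    have n := h.k16 hn t2 a1 a2 r2 m1 m2
    refine le_of_card_two (h.n1 (hq.tyB (e 0 (by omega) ▸ tp) (by omega))) m3 (fun e => n (e ▸ one_mem _)) ?_
    have z1 := h.ZB_le a1 t2 (h.ys_mul (GA.tyB a1 t2) a1.symm m1 k1)
    have z2 := h.ZB_le a2 t2 (h.ys_mul (GA.tyB a2 t2) a2.symm m2 k2)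
    have e : y * y' = (y * y0) * (y' * y0') * (y0 * y0') := by
      calc y * y' = y * (y0 * y0) * y' * (y0' * y0') := by rw [h.sqV k1.memV, h.sqV k2.memV]; group
        _ = (y * y0) * (y0 * (y' * y0')) * y0' := by group
        _ = _ := by rw [← (h.commQ z2 q1).eq]; group
    rw [e]
    exact mul_mem (mem_sup_left (mul_mem z1 z2)) (mem_sup_right (mem_zpowers _))
  have B : ∀ q : ℤ → CosetVertex P₁ P₂, Line q → (∀ i, i ≤ 3 → q i = p i) → 𝐙' (q (b - 1)) ≤ P := by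
    intro q hq e
    obtain ⟨s, hs, s1, s2⟩ := h.fork hq (b - 1)
    rw [sub_add_cancel] at s2
    exact h.ZA_le (hq.adj (j := b) (by omega)) (s1 (b - 1) le_rfl ▸ hs.adj (j := b) (by omega)) s2
      (hq.tyA (e 0 (by omega) ▸ tp) (by omega)) (A q hq e) (A s hs fun i hi => (s1 i (by omega)).trans (e i hi))
  have t3 := hp.tyA tp (i := b - 3) (by omega)
  have tb2 := hp.tyB tp (i := b - 2) (by omega)
  have C : 𝐙' (p (b - 3)) ≤ P := by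
    rcases (by omega : b = 5 ∨ 7 ≤ b) with rfl | hb7
    · exact le_sup_left
    obtain ⟨s, hs, s1, s2⟩ := h.fork hp (b - 3)
    rw [show (b : ℤ) - 3 + 1 = b - 2 by omega] at s2
    have ts : ty (s 0) = true := s1 0 (by omega) ▸ tp
    exact h.ZA_le (hp.adj (j := b - 2) (by omega)) (s1 (b - 3) le_rfl ▸ hs.adj (j := b - 2) (by omega)) s2 t3
      ((h.ZB_le (hp.adj (by omega)) (hp.tyA tp (by omega))).trans (B p hp fun _ _ => rfl))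
      ((h.ZB_le (hs.adj (by omega)) (hs.tyA ts (by omega))).trans (B s hs fun i hi => s1 i (by omega)))
  have l3 : Le2 (𝐙' (p (b - 3))) P := le2_of_card_le (by rwa [inf_eq_left.2 C, GA.card_Z_eq (t3.trans t2.symm)])
  obtain ⟨s, hs, s1, s2⟩ := h.fork hp (b - 2)
  rw [show (b : ℤ) - 2 + 1 = b - 1 by omega] at s2
  have ts : ty (s 0) = true := s1 0 (by omega) ▸ tp
  obtain ⟨u, u1, u2⟩ := h.exZ hp tp (b - 1) (b - 2) (by omega) (by omega)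
  obtain ⟨w, w1, w2⟩ := h.exZ hs ts (b - 1) (b - 2) (by omega) (by omega)
  rw [s1 _ le_rfl] at w2
  have c0 := hp.adj (i := b - 2) (j := b - 3) (by omega)
  have c1 := hp.adj (i := b - 2) (j := b - 1) (by omega)
  have c2 : (Γ).Adj (p (b - 2)) (s (b - 1)) := s1 (b - 2) le_rfl ▸ hs.adj (by omega)
  have n1 : p (b - 1) ≠ p (b - 3) := hp.ne (by omega)
  have n2 : s (b - 1) ≠ p (b - 3) := s1 (b - 3) (by omega) ▸ hs.ne (by omega)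
  exact hn _ _ _ tb2 c0 ⟨_, _, u, w, c1, c2, n1, n2, s2, u1, u2, w1, w2, rfl⟩
    (l3 u (B p hp (fun _ _ => rfl) u1) w (B s hs (fun i hi => s1 i (by omega)) w1)
      (fun e => u2 (h.ii tb2 c0 c1 n1 e u1)) fun e => w2 (h.ii tb2 c0 c2 n2 e w1))

theorem tri (h : GO P₁ P₂ b) (ht : ty α = true) (h1 : (Γ).Adj α β) (h2 : (Γ).Adj α γ) (h3 : (Γ).Adj α δ)
    (n1 : γ ≠ β) (n2 : δ ≠ β) (n3 : δ ≠ γ) {y : X} (hy : y ∈ 𝐙' α) (y1 : y ∉ 𝐙' β) (y2 : y ∉ 𝐙' γ) : y ∈ 𝐙' δ := by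
  by_contra y3
  obtain ⟨z, hz, hz1⟩ := exists_ne_one_of_ne_bot (h.Z_ne_bot β)
  have z0 := h.ZB_le h1 ht hz
  have := h.eq_one h2 h3 n3 ht (h.l2 h2 ht y hy z z0 y2 fun e => hz1 (h.eq_one h1 h2 n1 ht hz e))
    (h.l2 h3 ht y hy z z0 y3 fun e => hz1 (h.eq_one h1 h3 n2 ht hz e))
  exact y1 (eq_inv_of_mul_eq_one_left this ▸ inv_mem hz)

theorem five (h : GO P₁ P₂ b) (hn : N8 P₁ P₂) (hb5 : 5 ≤ b) : b = 5 := by
  have ho := h.ho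
  have A : ∀ q : ℤ → CosetVertex P₁ P₂, Line q → ty (q 0) = true → 𝐙' (q 3) ≤ 𝐙' (q (b - 1)) := by
    intro p hp tp
    have t2 := hp.tyA tp (i := 2) rfl
    have a1 := hp.adj (i := 2) (j := 1) (by omega)
    have a3 := hp.adj (i := 2) (j := 3) (by omega)
    obtain ⟨r, hr, r1, r2⟩ := h.forkL hp 2
    have tr : ty (r 0) = true := (hr.ty_even (i := 2) (by omega)).trans (r1 2 le_rfl ▸ t2)
    have a2 : (Γ).Adj (p 2) (r 1) := r1 2 le_rfl ▸ hr.adj (by omega)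
    obtain ⟨x, x1, x2⟩ := h.exZ hp tp 0 1 rfl rfl
    obtain ⟨x', x1', x2'⟩ := h.exZ hr tr 0 1 rfl rfl
    obtain ⟨v, v1, v2⟩ := h.exZ hp tp (b + 1) b (by omega) (by omega)
    have k1 := h.ys_comm1 hp tp x1 x2 v1 v2
    have k2 := h.ys_comm2 hp tp x1 x2 v1 v2
    have k3 := h.ys_comm1 hr tr x1' x2' (r1 (b + 1) (by omega) ▸ v1) (r1 b (by omega) ▸ v2)
    have k4 := h.ys_comm2 hr tr x1' x2' (r1 (b + 1) (by omega) ▸ v1) (r1 b (by omega) ▸ v2)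
    rw [r1 2 le_rfl] at k3
    rw [r1 _ (by omega), r1 _ (by omega)] at k4
    have m1 := hn _ _ _ (GA.tyB a1 t2) a1.symm k1
    have m2 := hn _ _ _ (hp.tyB tp (by omega)) (hp.adj (by omega)) k2
    have m3 := hn _ _ _ (GA.tyB a2 t2) a2.symm k3
    have m4 := hn _ _ _ (hp.tyB tp (by omega)) (hp.adj (by omega)) k4
    have n1 := h.ys_not (GA.tyB a1 t2) k1
    have n3 := h.ys_not (GA.tyB a2 t2) k3
    have c3 := h.n1 (GA.tyB a3 t2)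
    by_cases e1 : ⁅x, v⁆ ∈ 𝐙' (p 3)
    · exact le_of_card_two c3 e1 (fun e => n1 (e ▸ one_mem _)) m2
    by_cases e2 : ⁅x', v⁆ ∈ 𝐙' (p 3)
    · exact le_of_card_two c3 e2 (fun e => n3 (e ▸ one_mem _)) m4
    refine le_of_card_two c3 (h.l2 a3 t2 _ m1 _ m3 e1 e2) (fun e => e1 ?_) (mul_mem m2 m4)
    refine h.tri t2 a1 a2 a3 r2 (hp.ne (by omega)) (r1 3 (by omega) ▸ hr.ne (by omega)) m1 n1 fun e' => n3 ?_
    exact eq_inv_of_mul_eq_one_right e ▸ inv_mem e'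
  have B : ∀ q : ℤ → CosetVertex P₁ P₂, Line q → ty (q 0) = true → 𝐙' (q 3) ≤ 𝐙' (q (b - 2)) := by
    intro p hp tp x hx
    obtain ⟨s, hs, s1, s2⟩ := h.fork hp (b - 2)
    rw [show (b : ℤ) - 2 + 1 = b - 1 by omega] at s2
    exact h.ii (hp.tyB tp (by omega)) (hp.adj (by omega)) (s1 (b - 2) le_rfl ▸ hs.adj (by omega)) s2 (A p hp tp hx)
      (A s hs (s1 0 (by omega) ▸ tp) (s1 3 (by omega) ▸ hx))
  by_contra hb
  obtain ⟨p, hp, tp, -⟩ := h.ex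
  obtain ⟨s, hs, s1, s2⟩ := h.fork hp (b - 3)
  rw [show (b : ℤ) - 3 + 1 = b - 2 by omega] at s2
  have := B s hs (s1 0 (by omega) ▸ tp)
  rw [s1 3 (by omega)] at this
  exact h.Z_ne_bot _ (eq_bot_iff.2 ((le_inf (B p hp tp) this).trans (h.ZB_inf (hp.adj (i := b - 3) (by omega))
    (s1 (b - 3) le_rfl ▸ hs.adj (by omega)) s2 (hp.tyA tp (by omega))).le))

theorem not_five (h : GO P₁ P₂ 5) (hn : N8 P₁ P₂) : False := by
  have A : ∀ q : ℤ → CosetVertex P₁ P₂, Line q → ty (q 0) = true → ∀ s ∈ 𝐙' (q 0), s ∉ 𝐙' (q 1) →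
      ∀ t ∈ 𝐙' (q 6), t ∉ 𝐙' (q 5) → ⁅s, t⁆ ∈ 𝐙' (q 3) ∧ ⁅s, t⁆ ≠ 1 := by
    intro q hq tq s s1 s2 t t1 t2
    have k1 := h.ys_comm1 hq tq s1 s2 t1 t2
    have k2 := h.ys_comm2 hq tq s1 s2 t1 t2
    exact ⟨h.ii (hq.tyB tq rfl) (hq.adj (by omega)) (hq.adj (by omega)) (hq.ne (by omega))
      (hn _ _ _ (hq.tyB tq rfl) (hq.adj (by omega)) k1) (hn _ _ _ (hq.tyB tq rfl) (hq.adj (by omega)) k2),
      fun e => h.ys_not (hq.tyB tq rfl) k1 (e ▸ one_mem _)⟩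
  have B : ∀ q : ℤ → CosetVertex P₁ P₂, Line q → ty (q 0) = true → ∀ s ∈ 𝐙' (q 0), s ∉ 𝐙' (q 1) →
      ∀ t ∈ 𝐙' (q 8), t ∉ 𝐙' (q 7) → ⁅s, t⁆ * ⁅s, t⁆ ∈ 𝐙' (q 3) ∧ ⁅s, t⁆ * ⁅s, t⁆ ≠ 1 := by
    intro p hp tp s s1 s2 t t1 t2
    have t3 : t ∉ 𝐐 (p 3) := h.not_Q (hp.rev 8) (hp.tyA tp rfl) t1 t2
    have a := hp.adj (i := 3) (j := 4) (by omega)
    have tm := h.Q_le_inf' a (h.zl hp (by omega) t1)
    obtain ⟨r, hr, r1, r2⟩ := hp.glue ((hp.rev 6).smul t) 3 (mem_stabilizer_iff.1 tm.1).symm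
      (h.smul_ne a (hp.adj (j := 2) (by omega)) (hp.ne (by omega)) tm t3).1.symm
    have := A r hr (r1 0 (by omega) ▸ tp) s (r1 0 (by omega) ▸ s1) (r1 1 (by omega) ▸ s2) (t * s * t⁻¹)
      (r2 6 (by omega) ▸ conj_mem_Z.2 s1) (r2 5 (by omega) ▸ fun e => s2 (conj_mem_Z.1 e))
    rwa [r1 3 le_rfl, (comm_inv (h.sq s1) (h.sq (conj_mem_Z (g := t).2 s1))).2.2,
      ← (comm_inv (h.sq s1) (h.sq t1)).1] at this
  obtain ⟨p, hp, tp, -⟩ := h.ex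
  obtain ⟨s, s1, s2⟩ := h.exZ hp tp 0 1 rfl rfl
  obtain ⟨t, t1, t2⟩ := h.exZ hp tp 8 7 rfl rfl
  obtain ⟨m1, m2⟩ := B p hp tp s s1 s2 t t1 t2
  have m3 := inv_mem (B _ (hp.rev 8) (hp.tyA tp rfl) t t1 t2 s s1 s2).1
  rw [mul_inv_rev, commutatorElement_inv] at m3
  exact m2 (h.eq_one (hp.adj (i := 4) (by omega)) (hp.adj (by omega)) (hp.ne (by omega)) (hp.tyA tp rfl) m1 m3)

theorem l2V (h : GO P₁ P₂ b) (hn : N8 P₁ P₂) (ht : ty α = true) (h1 : (Γ).Adj α β) : Le2 (𝐙' α) (Vv β) := by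
  have tβ := GA.tyB h1 ht
  obtain ⟨μ, h2, n1⟩ := h.exists_ne h1.symm
  obtain ⟨ν, h3, n2, n3⟩ := h.exists_third h1.symm h2 n1
  obtain ⟨s, s1, s2⟩ := exists_not_mem_of_not_le (h.not_ZA_le (GA.tyA h2 tβ) tβ)
  obtain ⟨t, t1, t2⟩ := exists_not_mem_of_not_le (h.not_ZA_le (GA.tyA h3 tβ) tβ)
  refine (le2_sup_zpowers (G_norm_Z α (Q_le_G α (h.z2 h2 h1.symm s1))) (h.sq s1)).mono_right (V_le fun κ hκ => ?_)
  have z := (h.ZB_le h1 ht).trans (le_sup_left : 𝐙' α ≤ 𝐙' α ⊔ zpowers s)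
  have sm : s ∈ 𝐙' α ⊔ zpowers s := mem_sup_right (mem_zpowers s)
  rcases h.four h1.symm h2 h3 hκ n1 n2 n3 with rfl | rfl | rfl
  · exact le_sup_left
  · exact (h.l2 h2.symm (GA.tyA h2 tβ)).le_of_mem (inf_le_left.trans z) s1 s2 sm
  · exact (h.l2 h3.symm (GA.tyA h3 tβ)).le_of_mem (inf_le_left.trans z) t1 t2 ((mul_mem_cancel_left sm).1
      (mem_sup_left (hn _ _ _ tβ h1.symm ⟨_, _, s, t, h2, h3, n1, n2, n3, s1, s2, t1, t2, rfl⟩)))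

theorem exV (h : GO P₁ P₂ b) (ht : ty α = true) (h1 : (Γ).Adj α β) :
    ∃ μ s, (Γ).Adj β μ ∧ μ ≠ α ∧ s ∈ 𝐙' μ ∧ s ∉ 𝐙' β ∧ s ∉ 𝐙' α := by
  have tβ := GA.tyB h1 ht
  obtain ⟨μ, h2, n1⟩ := h.exists_ne h1.symm
  obtain ⟨s, s1, s2⟩ := exists_not_mem_of_not_le (h.not_ZA_le (GA.tyA h2 tβ) tβ)
  exact ⟨μ, s, h2, n1, s1, s2, fun e => s2 (h.ii tβ h1.symm h2 n1 e s1)⟩

theorem cm3 (h : GO P₁ P₂ 3) (hn : N8 P₁ P₂) (ht : ty α = true) (h1 : (Γ).Adj α β) (h2 : (Γ).Adj α γ)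
    (h3 : (Γ).Adj α δ) (n1 : γ ≠ β) (n2 : δ ≠ β) (n3 : δ ≠ γ) {v w : X} (v1 : v ∈ Vv β) (v2 : v ∉ 𝐙' α)
    (w1 : w ∈ Vv γ) (w2 : w ∉ 𝐙' α) : ⁅v, w⁆ ∈ 𝐙' δ ∧ ⁅v, w⁆ ≠ 1 := by
  obtain ⟨μ, s, a1, m1, s1, s2, s3⟩ := h.exV ht h1
  obtain ⟨ν, t, a2, m2, t1, t2, t3⟩ := h.exV ht h2
  obtain ⟨q0, hq0, e0, e1⟩ := h.exists_line a1.symm 0
  obtain ⟨q1, hq1, f1, f2⟩ := h.branch hq0 (0 + 1) (e1 ▸ h1.symm) (μ := α) (by simpa [e0] using m1.symm)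
  obtain ⟨q2, hq2, g1, g2⟩ := h.branch hq1 (0 + 1 + 1) (f2 ▸ h2) (μ := γ) (by
    rw [show (0 : ℤ) + 1 + 1 - 1 = 0 + 1 by omega, f1 _ le_rfl, e1]; exact n1)
  obtain ⟨q, hq, k1, k2⟩ := h.branch hq2 (0 + 1 + 1 + 1) (g2 ▸ a2) (μ := ν) (by
    rw [show (0 : ℤ) + 1 + 1 + 1 - 1 = 0 + 1 + 1 by omega, g1 _ le_rfl, f2]; exact m2)
  have p0 : q 0 = μ := (k1 _ (by omega)).trans ((g1 _ (by omega)).trans ((f1 _ (by omega)).trans e0))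
  have p1 : q 1 = β := (k1 _ (by omega)).trans ((g1 _ (by omega)).trans ((f1 _ (by omega)).trans e1))
  have p2 : q 2 = α := (k1 _ (by omega)).trans ((g1 _ (by omega)).trans f2)
  have p3 : q (3 : ℕ) = γ := (k1 _ (by omega)).trans g2
  have p4 : q ((3 : ℕ) + 1) = ν := k2
  have tq : ty (q 0) = true := by rw [p0, GA.tyA a1 (GA.tyB h1 ht)]
  have y1 := h.ys_comm1 hq tq (p0 ▸ s1) (p1 ▸ s2) (p4 ▸ t1) (p3 ▸ t2)
  have y2 := h.ys_comm2 hq tq (p0 ▸ s1) (p1 ▸ s2) (p4 ▸ t1) (p3 ▸ t2)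
  rw [p1, p2] at y1
  rw [p3] at y2
  have z1 := (h.l2V hn ht h1).inv_mul (Z_le_V a1 s1) v1 s3 v2
  have z2 := (h.l2V hn ht h2).inv_mul (Z_le_V a2 t1) w1 t3 w2
  have e : ⁅v, w⁆ = ⁅s, t⁆ := by
    rw [← comm_mul_central (h.commQ z1 (h.z2 a2 h2.symm t1)) (h.commQ z1 (h.Z_le_Q α z2))
      (h.commQ z2 (h.z2 a1 h1.symm s1)), mul_inv_cancel_left, mul_inv_cancel_left]
  rw [e]
  have n := h.ys_not (GA.tyB h1 ht) y1
  exact ⟨h.tri ht h1 h2 h3 n1 n2 n3 (hn _ _ _ (GA.tyB h1 ht) h1.symm y1) n (h.ys_not (GA.tyB h2 ht) y2),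
    fun e => n (e ▸ one_mem _)⟩

theorem notQ3 (h : GO P₁ P₂ 3) (hn : N8 P₁ P₂) (ht : ty α = true) (h1 : (Γ).Adj α β) (h2 : (Γ).Adj α γ)
    (n1 : γ ≠ β) {v : X} (v1 : v ∈ Vv β) (v2 : v ∉ 𝐙' α) : v ∉ 𝐐 γ := fun e => by
  obtain ⟨δ, h3, n2, n3⟩ := h.exists_third h1 h2 n1
  obtain ⟨ν, t, a2, m2, t1, t2, t3⟩ := h.exV ht h2
  obtain ⟨k1, k2⟩ := h.cm3 hn ht h1 h2 h3 n1 n2 n3 v1 v2 (Z_le_V a2 t1) t3
  have := inv_mem (h.comm_V' (GA.tyB h2 ht) (Z_le_V a2 t1) e)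
  rw [commutatorElement_inv] at this
  exact k2 (h.eq_one h2 h3 n3 ht this k1)

theorem step3 (h : GO P₁ P₂ 3) (hn : N8 P₁ P₂) (ht : ty α = true) (h1 : (Γ).Adj α β) :
    ∃ U : Subgroup X, U ≤ Gv α ⊓ Gv β ∧ ¬ U ≤ 𝐐 α ∧ ⁅Ev α ⊓ 𝐂(Vv β), U⁆ ≤ 𝐙' α := by
  obtain ⟨γ, h2, n1⟩ := h.exists_ne h1
  have tβ := GA.tyB h1 ht
  have hC : 𝐐 β ⊓ 𝐂(Vv β) ≤ 𝐐 α :=
    (inf_le_inf (h.Q_le h1.symm) (H69.centralizer_anti (Z_le_V h1.symm))).trans (h.centA ht)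
  have nV : ∀ {β γ}, (Γ).Adj α β → (Γ).Adj α γ → γ ≠ β → ¬ Vv β ≤ 𝐐 γ := fun h1 h2 n1 e => by
    obtain ⟨μ, s, a1, m1, s1, s2, s3⟩ := h.exV ht h1
    exact h.notQ3 hn ht h1 h2 n1 (Z_le_V a1 s1) s3 (e (Z_le_V a1 s1))
  have hU : Vv γ ≤ Gv β ⊓ Gv α := (h.VQ' h2.symm).trans (h.Q_le_inf' h1.symm)
  have c1 : ⁅𝐐 β ⊓ 𝐂(Vv β), Vv γ⁆ ≤ Vv β := by
    have : 𝐐 β ⊓ 𝐂(Vv β) ≤ Vv β ⊔ (𝐐 γ ⊓ (𝐐 β ⊓ 𝐂(Vv β))) :=
      ((h.le2Q h2).mono_right hC).le_of_not_le le_sup_right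
        (le_inf (h.VQ β) (H24.EA.le_centralizer (h.V_ea β))) (nV h1 h2 n1) le_sup_left
    refine (commutator_mono this le_rfl).trans (commutator_sup_le_left le_normalizer
      (inf_le_right.trans (inf_le_left.trans ((Q_le_G β).trans (G_norm_V β))))
      (commutator_le_left_of_le_normalizer (hU.trans (inf_le_left.trans (G_norm_V β)))) ?_)
    rw [Subgroup.commutator_comm]
    exact (commutator_mono le_rfl inf_le_left).trans ((h.comm_V (GA.tyB h2 ht)).trans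
      ((h.ZB_le h2 ht).trans (Z_le_V h1.symm)))
  have c2 := h.comm_K_le h1.symm hU (nV h2 h1 n1.symm)
    (H69.le_normalizer_inf (G_norm_Q β) (H69.le_normalizer_centralizer (G_norm_V β))) (G_norm_V β) c1
  have hLG : ncl (Vv γ) (Gv β) ≤ Gv β := ncl_le_self (hU.trans inf_le_left)
  refine ⟨ncl (Vv γ) (Gv β) ⊓ 𝐐 β, inf_le_right.trans (h.Q_le_inf' h1), fun hle => ?_,
    commutator_le.2 fun e he u hu => ?_⟩
  · have hN : Gv β ≤ 𝐍(𝐐 β ⊓ 𝐐 α) := by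
      refine h.gen_K h1.symm (h.norm_QQ h1.symm) ((h.res_le_ncl h1.symm hU (nV h2 h1 n1.symm)).trans
        (le_normalizer_of_commutator_le_right ?_))
      have : ⁅ncl (Vv γ) (Gv β), 𝐐 β ⊓ 𝐐 α⁆ ≤ ncl (Vv γ) (Gv β) ⊓ 𝐐 β :=
        le_inf (commutator_le_left_of_le_normalizer (inf_le_left.trans ((Q_le_G β).trans (le_normalizer_ncl _ _))))
          ((commutator_mono le_rfl inf_le_left).trans (commutator_le_right_of_le_normalizer (hLG.trans (G_norm_Q β))))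
      exact this.trans (le_inf inf_le_right hle)
    obtain ⟨μ, a, m⟩ := h.exists_ne h1.symm
    obtain ⟨g, hg, rfl⟩ := H68.exists_stabilizer_smul_eq h1.symm a
    refine h.nd tβ a h1.symm m.symm ?_
    rw [← cj_eq_of_mem_normalizer (hN hg), O_Gv_smul]
    exact cj_mono g inf_le_right
  · by_contra hz
    refine h.notQ3 hn ht h1 h2 n1 (c2 (commutator_mem_commutator ⟨E_le' h1 he.1, he.2⟩ hu.1)) hz (E_le' h2 ?_)
    exact commutator_le_left_of_le_normalizer (G_norm_E α) (commutator_mem_commutator he.1 (h.Q_le h1.symm hu.2))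

theorem s3 (h : GO P₁ P₂ 3) (hn : N8 P₁ P₂) (ht : ty α = true) (h1 : (Γ).Adj α β) (h2 : (Γ).Adj α γ)
    (h3 : (Γ).Adj α δ) (n1 : γ ≠ β) (n2 : δ ≠ β) (n3 : δ ≠ γ) {e : X} (e1 : e ∈ Ev α) (e2 : e ∈ 𝐂(Vv β))
    (e3 : e ∈ 𝐂(Vv γ)) : e ∈ 𝐂(Vv δ) := by
  obtain ⟨U, u1, u2, u3⟩ := h.step3 hn ht h1
  obtain ⟨u, hu, huQ⟩ := exists_not_mem_of_not_le u2
  have sw := h.swap h1 h2 h3 n1 n2 n3 (u1 hu) huQ
  have m : u * e * u⁻¹ ∈ 𝐂(Vv δ) := by rw [← sw, V_smul, ← cj_centralizer]; exact cj_mem u e3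
  have z : ⁅e, u⁆ ∈ 𝐂(Vv δ) := (le_centralizer_comm.1 ((h.VQ' h3.symm).trans (h.Q_cent α)))
    (u3 (commutator_mem_commutator ⟨e1, e2⟩ hu))
  have : e = ⁅e, u⁆ * (u * e * u⁻¹) := by rw [commutatorElement_def]; group
  rw [this]
  exact mul_mem z m

theorem centV (h : GO P₁ P₂ b) (hn : N8 P₁ P₂) (ht : ty α = true) (h1 : (Γ).Adj α β) {v : X} (v1 : v ∈ Vv β)
    (v2 : v ∉ 𝐙' α) : centralizer {v} ⊓ Ev α ≤ 𝐂(Vv β) := fun e he =>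
  le_centralizer_singleton_iff.1 ((h.l2V hn ht h1).le_of_mem
    (inf_le_left.trans (le_centralizer_singleton_iff.2 (h.Q_cent α (E_le α he.2)))) v1 v2
    (mem_centralizer_singleton_iff.2 (mem_centralizer_singleton_iff.1 he.1).symm))

theorem l2E (h : GO P₁ P₂ b) (ht : ty α = true) (h1 : (Γ).Adj α β) {v : X} (v1 : v ∈ Vv β) :
    Le2 (centralizer {v}) (Ev α) :=
  le2_of_comm (fun e he => by
    rw [← commutatorElement_inv]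
    exact inv_mem (h.comm_V' (GA.tyB h1 ht) v1 (E_le' h1 he))) (h.n1 (GA.tyB h1 ht))

theorem bound_three (h : GO P₁ P₂ 3) (hn : N8 P₁ P₂) (ht : ty α = true) (h1 : (Γ).Adj α β) :
    Nat.card (Gv α ⊓ Gv β : Subgroup X) ≤ 128 := by
  obtain ⟨γ, h2, n1⟩ := h.exists_ne h1
  obtain ⟨δ, h3, n2, n3⟩ := h.exists_third h1 h2 n1
  obtain ⟨_, u, a1, -, s1, -, u2⟩ := h.exV ht h1
  obtain ⟨_, v, a2, -, s2, -, v2⟩ := h.exV ht h2
  obtain ⟨_, w, a3, -, s3, -, w2⟩ := h.exV ht h3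
  have u1 := Z_le_V a1 s1
  have v1 := Z_le_V a2 s2
  have w1 := Z_le_V a3 s3
  have uQ := h.VQ' h1.symm u1
  have vQ := h.VQ' h2.symm v1
  have wQ := h.VQ' h3.symm w1
  have hE : u * (v * w) ∈ Ev α := by
    refine h.mem_E3 h1 h2 h3 n1 n2 n3 (mul_mem uQ (mul_mem vQ wQ)) (mul_mem (h.VQ β u1) ?_) ?_ ?_
    · exact h.le2Q h1 v vQ w wQ (h.notQ3 hn ht h2 h1 n1.symm v1 v2) (h.notQ3 hn ht h3 h1 n2.symm w1 w2)
    · exact h.le2Q h2 u uQ _ (mul_mem vQ wQ) (h.notQ3 hn ht h1 h2 n1 u1 u2) fun e =>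
        h.notQ3 hn ht h3 h2 n3.symm w1 w2 ((mul_mem_cancel_left (h.VQ γ v1)).1 e)
    · rw [← mul_assoc]
      exact mul_mem (h.le2Q h3 u uQ v vQ (h.notQ3 hn ht h1 h3 n2 u1 u2) (h.notQ3 hn ht h2 h3 n3 v1 v2)) (h.VQ δ w1)
  have cz : ∀ {μ z x}, (Γ).Adj α μ → z ∈ 𝐙' μ → x ∈ 𝐐 α → Commute x z := fun a hz hx =>
    (h.commQ (h.ZB_le a ht hz) hx).symm
  have ne1 : ∀ {μ ν z z'}, (Γ).Adj α μ → (Γ).Adj α ν → ν ≠ μ → z ∈ 𝐙' μ → z ≠ 1 → z' ∈ 𝐙' ν → z * z' ≠ 1 :=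
    fun a a' n hz hz1 hz' e => hz1 (h.eq_one a a' n ht hz (eq_inv_of_mul_eq_one_left e ▸ inv_mem hz'))
  have nc : ∀ {μ : CosetVertex P₁ P₂} {x : X}, x ∈ Vv μ → ⁅x, u * (v * w)⁆ ≠ 1 → u * (v * w) ∉ 𝐂(Vv μ) := fun hx n e =>
    n (commutatorElement_eq_one_iff_mul_comm.2 (e _ hx))
  obtain ⟨uv, uv'⟩ := h.cm3 hn ht h1 h2 h3 n1 n2 n3 u1 u2 v1 v2
  obtain ⟨uw, uw'⟩ := h.cm3 hn ht h1 h3 h2 n2 n1 n3.symm u1 u2 w1 w2
  obtain ⟨vu, vu'⟩ := h.cm3 hn ht h2 h1 h3 n1.symm n3 n2 v1 v2 u1 u2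
  obtain ⟨vw, vw'⟩ := h.cm3 hn ht h2 h3 h1 n3 n1.symm n2.symm v1 v2 w1 w2
  obtain ⟨wu, wu'⟩ := h.cm3 hn ht h3 h1 h2 n2.symm n3.symm n1 w1 w2 u1 u2
  obtain ⟨wv, wv'⟩ := h.cm3 hn ht h3 h2 h1 n3.symm n2.symm n1.symm w1 w2 v1 v2
  have c1 : ⁅u, u * (v * w)⁆ ≠ 1 := by
    have e : ⁅u, v * w⁆ = ⁅u, v⁆ * ⁅u, w⁆ := comm_mul_right (cz h2 uw vQ)
    rw [comm_mul_right (by rw [e]; exact (cz h3 uv uQ).mul_right (cz h2 uw uQ)), commutatorElement_self, one_mul, e]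
    exact ne1 h3 h2 n3.symm uv uv' uw
  have c2 : ⁅v, u * (v * w)⁆ ≠ 1 := by
    have e : ⁅v, v * w⁆ = ⁅v, w⁆ := by rw [comm_mul_right (cz h1 vw vQ), commutatorElement_self, one_mul]
    rw [comm_mul_right (by rw [e]; exact cz h1 vw uQ), e]
    exact ne1 h3 h1 n2.symm vu vu' vw
  have c3 : ⁅w, u * (v * w)⁆ ≠ 1 := by
    have e : ⁅w, v * w⁆ = ⁅w, v⁆ := by
      rw [comm_mul_right (by rw [commutatorElement_self]; exact Commute.one_right _), commutatorElement_self, mul_one]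
    rw [comm_mul_right (by rw [e]; exact cz h1 wv uQ), e]
    exact ne1 h2 h1 n1.symm wu wu' wv
  have all : ∀ e ∈ Ev α, e ∈ 𝐂(Vv β) → ∀ μ, (Γ).Adj α μ → e ∈ 𝐂(Vv μ) := by
    intro e e1 e2
    have e3 : e ∈ 𝐂(Vv γ) := by
      by_contra e3
      have e4 : e ∉ 𝐂(Vv δ) := fun e4 => e3 (h.s3 hn ht h1 h3 h2 n2 n1 n3.symm e1 e2 e4)
      have m := mul_mem e1 hE
      have k1 := ((h.l2E ht h2 v1).mono (h.centV hn ht h2 v1 v2) le_rfl) e e1 _ hE e3 (nc v1 c2)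
      have k2 := ((h.l2E ht h3 w1).mono (h.centV hn ht h3 w1 w2) le_rfl) e e1 _ hE e4 (nc w1 c3)
      exact nc u1 c1 ((mul_mem_cancel_left e2).1 (h.s3 hn ht h2 h3 h1 n3 n1.symm n2.symm m k1 k2))
    intro μ hμ
    rcases h.four h1 h2 h3 hμ n1 n2 n3 with rfl | rfl | rfl
    exacts [e2, e3, h.s3 hn ht h1 h2 h3 n1 n2 n3 e1 e2 e3]
  have hY := h.centV hn ht h1 u1 u2
  have hYn : Gv α ≤ 𝐍(centralizer {u} ⊓ Ev α) := le_normalizer_of_cj_le fun g hg x hx => by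
    obtain ⟨e, he, rfl⟩ := mem_cj'.1 hx
    refine ⟨mem_centralizer_singleton_iff.2 (Eq.symm ?_), H69.conj_mem_of_mem_normalizer (G_norm_E α hg) he.2⟩
    have := cj_mem g (all e he.2 (hY he) _ (adj_smul_of_mem h1 (inv_mem hg)))
    rw [cj_centralizer, ← V_smul, smul_inv_smul] at this
    exact this u u1
  obtain ⟨U, k1, k2, k3⟩ := h.step3 hn ht h1
  have hK : ⁅centralizer {u} ⊓ Ev α, 𝐊 α⁆ ≤ 𝐙' α :=
    (commutator_mono le_rfl (h.res_le_ncl h1 k1 k2)).trans (h.comm_K_le h1 k1 k2 hYn (G_norm_Z α)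
      ((commutator_mono (le_inf inf_le_right hY) le_rfl).trans k3))
  have ea := h.ea_of_comm ht (inf_le_right.trans (E_le α)) hK
  have hZE : 𝐙' α ≤ Ev α := fun x hx => mem_E.2 ⟨h.Z_le_Q _ hx, fun μ hμ => h.VQ μ (Z_le_V hμ.symm hx)⟩
  refine h.bound h1 ht (h.n1 (GA.tyB h1 ht)) (h.l2E ht h1 u1) (h.le_Z_of_cent h1 ht
    (le_inf (fun x hx => mem_centralizer_singleton_iff.2 (h.commQ hx uQ)) hZE) inf_le_right hK (fun e he => ?_) uQ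
    (h.VQ β u1) (fun e => h.notQ3 hn ht h1 h2 n1 u1 u2 (E_le' h2 e)) inf_le_left)
  refine le_centralizer_singleton_iff.1 ((h.l2E ht h1 u1).le_of_mem
    (le_centralizer_singleton_iff.2 (H24.EA.le_centralizer ea he)) hE
    (fun e => c1 (commutatorElement_eq_one_iff_mul_comm.2 (mem_centralizer_singleton_iff.1 e).symm)) ?_)
  have k := fun μ a => le_centralizer_singleton_iff.2 (all e he.2 (hY he) μ a)
  exact mul_mem (k β h1 u1) (mul_mem (k γ h2 v1) (k δ h3 w1))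

theorem odd_bound (h : GO P₁ P₂ b) (ht : ty α = true) (h1 : (Γ).Adj α β) :
    Nat.card (Gv α ⊓ Gv β : Subgroup X) ≤ 128 := by
  have hb := h.hb
  have ho := h.ho
  have hn := h.dich.resolve_right h.not16
  rcases (by omega : b = 3 ∨ 5 ≤ b) with rfl | hb5
  · exact h.bound_three hn ht h1
  · obtain rfl := h.five hn hb5
    exact (h.not_five hn).elim

end GO

end H3.G3
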