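import Mathlib
import Cfsg.Agent.Base
import Cfsg.Agent.Lib.Gold3.Odd2

/-!
Goldschmidt's bound `|P₁ ∩ P₂| ≤ 2⁷` for amalgams of type `(S₃, S₃)`, and finite completions of finite amalgams.
-/

set_option autoImplicit false
set_option linter.unusedSectionVars false
set_option linter.unusedVariables false

namespace H3.G3

open Subgroup H69 H70 Cfsg MulAction
open scoped commutatorElement Pointwise

section fin

variable {X : Type*} [Group X] [Finite X] {P₁ P₂ : Subgroup X}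

local notation "Γ" => cosetGraph P₁ P₂
local notation "𝐐" δ:max => 𝐎(Gv δ)
local notation "𝐙'" δ:max => Zv (Gv δ)

theorem card_edge {α β : CosetVertex P₁ P₂} (h : (Γ).Adj α β) (ht : ty α = true) :
    Nat.card (Gv α ⊓ Gv β : Subgroup X) = Nat.card (P₁ ⊓ P₂ : Subgroup X) := by
  obtain ⟨x, e1, e2⟩ := adj_cases h ht
  rw [e1, e2, ← cj_inf, H69.card_cj]

theorem GA.card_le (h : GA P₁ P₂) : Nat.card (P₁ ⊓ P₂ : Subgroup X) ≤ 128 := by
  classical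
  have ex : ∃ n, ∃ δ μ : CosetVertex P₁ P₂, (Γ).dist δ μ = n ∧ ¬ 𝐙' δ ≤ 𝐐 μ := by
    by_contra h'
    push Not at h'
    exact h.Z_ne_bot (H68.vl P₁ P₂) (H68.eq_bot_of_forall_le_stabilizer (fun N hN hn =>
      h.w₁.core N hN le_normalizer_of_normal le_normalizer_of_normal) fun δ => (h' _ _ δ rfl).trans (Q_le_G δ))
  obtain ⟨δ, μ, hd, hn⟩ := Nat.find_spec ex
  have hB : GB P₁ P₂ (Nat.find ex) := ⟨h, fun α β hl => by
    by_contra hc
    exact Nat.find_min ex hl ⟨α, β, rfl, hc⟩⟩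
  generalize Nat.find ex = b at hd hB
  rcases b with _ | n
  · rw [h.conn.dist_eq_zero_iff] at hd
    exact absurd (hd ▸ h.Z_le_Q δ) hn
  obtain ⟨p, hp, rfl, rfl⟩ := h.exists_geodesic n μ hd
  have a1 : (Γ).Adj (p 0) (p 1) := (hp 0).1
  have ht : ty (p 0) = true := by
    by_contra ht
    exact hn ((h.ZB_le a1.symm (GA.tyA a1 (by simpa using ht))).trans (hB.zl hp (by omega)))
  rw [← card_edge a1 ht]
  rcases (by omega : n = 0 ∨ n = 1 ∨ (3 ≤ n + 1 ∧ (n + 1) % 2 = 1) ∨ (4 ≤ n + 1 ∧ (n + 1) % 2 = 0)) with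
    rfl | rfl | ⟨h1, h2⟩ | ⟨h1, h2⟩
  · exact h.bound_one a1 ht hn
  · exact hB.bound_two hp ht hn
  · exact GO.odd_bound ⟨hB, h1, h2, p, hp, ht, hn⟩ ht a1
  · exact (hB.not_even h1 h2 hp ht hn).elim

theorem WA.symm (h : WA P₁ P₂) : WA P₂ P₁ := ⟨h.w₂, h.w₁, by rw [sup_comm, h.gen]⟩

theorem WA.card_le_of_not_ch (h : WA P₁ P₂) (hc : ¬ P₂ ⊓ 𝐂(𝐎(P₂)) ≤ 𝐎(P₂)) :
    Nat.card (P₁ ⊓ P₂ : Subgroup X) ≤ 128 := by
  have a1 := H68.adj_vl_vr (M₁ := P₁) (M₂ := P₂)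
  have e1 : Gv (H68.vl P₁ P₂) = P₁ := H68.stabilizer_vl
  have e2 : Gv (H68.vr P₁ P₂) = P₂ := H68.stabilizer_vr
  have n1 := G_norm_E (H68.vl P₁ P₂)
  have l1 := E_le (H68.vl P₁ P₂)
  have l2 := E_le' a1
  have c1 := h.card_Q_le (H68.vl P₁ P₂)
  rw [e1] at n1 l1 c1
  rw [e2] at l2
  rw [h.w₁.core _ (l1.trans h.w₁.O_le) n1 (h.w₂.norm_of_not_ch hc l2 (inf_le_right.trans n1)), card_bot] at c1
  have := h.w₁.card_inf
  omega

theorem WA.card_le (h : WA P₁ P₂) : Nat.card (P₁ ⊓ P₂ : Subgroup X) ≤ 128 := by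
  by_cases c2 : P₂ ⊓ 𝐂(𝐎(P₂)) ≤ 𝐎(P₂)
  swap
  · exact h.card_le_of_not_ch c2
  by_cases c1 : P₁ ⊓ 𝐂(𝐎(P₁)) ≤ 𝐎(P₁)
  swap
  · rw [inf_comm]
    exact h.symm.card_le_of_not_ch c1
  by_cases n1 : P₁ ≤ 𝐂(𝐙(P₁ ⊓ P₂)) <;> by_cases n2 : P₂ ≤ 𝐂(𝐙(P₁ ⊓ P₂))
  · exact absurd (h.w₁.eq_bot_of_cent (H68.oz_le _) (le_centralizer_comm.1 n1) (le_centralizer_comm.1 n2))
      (oz2_ne_bot h.w₁.isP fun e => h.w₁.not_le_O (e.le.trans bot_le))
  · rw [inf_comm] at n1 n2 ⊢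
    exact GA.card_le ⟨h.symm, c2, c1, n2, n1⟩
  · exact GA.card_le ⟨h, c1, c2, n1, n2⟩
  · have := (h.w₁.edge c1 n1).card_O_le (h.w₂.edge c2 (by rwa [inf_comm]))
    have := h.w₁.card_inf
    omega

end fin

section completion

universe u

variable {G : Type u} [Group G]

theorem exists_coord {M T : Subgroup G} (h : T ≤ M) :
    ∃ (Q : Type u) (e : Q × T ≃ M), ∀ q s t, (e (q, s * t) : G) = e (q, s) * t := by
  refine ⟨M ⧸ T.subgroupOf M, Equiv.ofBijective (fun x => x.1.out * inclusion h x.2) ⟨?_, fun m => ?_⟩,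
    fun q s t => (mul_assoc _ (s : G) (t : G)).symm⟩
  · rintro ⟨q, s⟩ ⟨q', s'⟩ e
    have key : ∀ (q : M ⧸ T.subgroupOf M) (s : T), (q.out * inclusion h s : M) = q := fun q s => by
      rw [QuotientGroup.mk_mul_of_mem _ (show inclusion h s ∈ T.subgroupOf M from s.2), QuotientGroup.out_eq']
    obtain rfl : q = q' := by rw [← key q s, ← key q' s']; exact congrArg _ e
    rw [show s = s' from inclusion_injective h (mul_left_cancel e)]
  · obtain ⟨t, ht⟩ := QuotientGroup.mk_out_eq_mul (T.subgroupOf M) m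
    exact ⟨(m, ⟨((t : M) : G), t.2⟩⁻¹), by simp [ht, Subtype.ext_iff]⟩

/-- right multiplication on the first coordinate. -/
def rho {M Ω R : Type*} [Group M] (E : Ω ≃ M × R) : M →* Equiv.Perm Ω :=
  MonoidHom.mk' (fun m => (E.trans ((Equiv.mulRight m⁻¹).prodCongr (Equiv.refl R))).trans E.symm)
    fun a b => by ext x; simp [Prod.map, mul_assoc]

theorem rho_apply {M Ω R : Type*} [Group M] (E : Ω ≃ M × R) (m : M) (x : Ω) :
    E (rho E m x) = ((E x).1 * m⁻¹, (E x).2) := by simp [rho, Prod.map]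

/-- a finite amalgam has a finite faithful completion. -/
theorem exists_completion (M₁ M₂ : Subgroup G) [Finite M₁] [Finite M₂] :
    ∃ (X : Type u) (_ : Group X) (_ : Finite X) (f₁ : M₁ →* X) (f₂ : M₂ →* X), Function.Injective f₁ ∧
      Function.Injective f₂ ∧ (∀ a b, f₁ a = f₂ b ↔ (a : G) = b) ∧ f₁.range ⊔ f₂.range = ⊤ := by
  obtain ⟨Q₁, e₁, h₁⟩ := exists_coord (inf_le_left : M₁ ⊓ M₂ ≤ M₁)
  obtain ⟨Q₂, e₂, h₂⟩ := exists_coord (inf_le_right : M₁ ⊓ M₂ ≤ M₂)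
  let E₁ : Q₁ × Q₂ × (M₁ ⊓ M₂ : Subgroup G) ≃ M₁ × Q₂ :=
    (((Equiv.refl _).prodCongr (Equiv.prodComm _ _)).trans (Equiv.prodAssoc _ _ _).symm).trans
      (e₁.prodCongr (Equiv.refl _))
  let E₂ : Q₁ × Q₂ × (M₁ ⊓ M₂ : Subgroup G) ≃ M₂ × Q₁ := (Equiv.prodComm _ _).trans (e₂.prodCongr (Equiv.refl _))
  have a₁ : ∀ x, E₁ x = (e₁ (x.1, x.2.2), x.2.1) := fun x => rfl
  have a₂ : ∀ x, E₂ x = (e₂ x.2, x.1) := fun x => rfl
  have : Finite (Q₂ × (M₁ ⊓ M₂ : Subgroup G)) := Finite.of_equiv _ e₂.symm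
  have : Finite (Q₁ × (M₁ ⊓ M₂ : Subgroup G)) := Finite.of_equiv _ e₁.symm
  have : Finite Q₁ := Finite.prod_left (M₁ ⊓ M₂ : Subgroup G)
  let x₀ : Q₁ × Q₂ × (M₁ ⊓ M₂ : Subgroup G) := ((e₁.symm 1).1, e₂.symm 1)
  have inj : ∀ {M R : Type u} [Group M] (E : Q₁ × Q₂ × (M₁ ⊓ M₂ : Subgroup G) ≃ M × R),
      Function.Injective (rho E) := fun E a b e => by
    have := rho_apply E a x₀
    rw [e, rho_apply] at this
    simpa [eq_comm] using this
  have key : ∀ a b, rho E₁ a = rho E₂ b ↔ (a : G) = b := fun a b => by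
    constructor
    · intro e
      have k1 := rho_apply E₁ a x₀
      have k2 := rho_apply E₂ b x₀
      rw [← e] at k2
      generalize rho E₁ a x₀ = y at k1 k2
      generalize x₀ = x at k1 k2
      obtain ⟨q₁, q₂, s⟩ := x
      obtain ⟨q₁', q₂', s'⟩ := y
      simp only [a₁, a₂, Prod.mk.injEq] at k1 k2
      obtain ⟨k1, rfl⟩ := k1
      obtain ⟨k2, rfl⟩ := k2
      have l1 := h₁ q₁' s (s⁻¹ * s')
      have l2 := h₂ q₂' s (s⁻¹ * s')
      rw [mul_inv_cancel_left, k1, coe_mul, mul_right_inj] at l1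
      rw [mul_inv_cancel_left, k2, coe_mul, mul_right_inj] at l2
      exact inv_injective (l1.trans l2.symm)
    · intro e
      ext1 ⟨q₁, q₂, s⟩
      let t : (M₁ ⊓ M₂ : Subgroup G) := ⟨a, a.2, e ▸ b.2⟩
      have l1 : rho E₁ a (q₁, q₂, s) = (q₁, q₂, s * t⁻¹) := E₁.injective (by
        rw [rho_apply, a₁, a₁]
        exact Prod.ext (Subtype.ext (h₁ q₁ s t⁻¹).symm) rfl)
      have l2 : rho E₂ b (q₁, q₂, s) = (q₁, q₂, s * t⁻¹) := E₂.injective (by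
        rw [rho_apply, a₂, a₂]
        refine Prod.ext (Subtype.ext ?_) rfl
        rw [h₂ q₂ s t⁻¹, coe_mul, coe_inv, ← e]
        rfl)
      rw [l1, l2]
  let Y := (rho E₁).range ⊔ (rho E₂).range
  refine ⟨Y, inferInstance, inferInstance,
    (rho E₁).codRestrict Y fun a => mem_sup_left ⟨a, rfl⟩, (rho E₂).codRestrict Y fun a => mem_sup_right ⟨a, rfl⟩,
    fun a b e => inj E₁ (congrArg Subtype.val e), fun a b e => inj E₂ (congrArg Subtype.val e),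
    fun a b => by rw [← key, Subtype.ext_iff]; rfl, map_injective Y.subtype_injective ?_⟩
  rw [Subgroup.map_sup, MonoidHom.map_range, MonoidHom.map_range, ← MonoidHom.range_eq_map, range_subtype]
  rfl

theorem range_inf {X : Type*} [Group X] {M₁ M₂ : Subgroup G} {f₁ : M₁ →* X} {f₂ : M₂ →* X}
    (h : ∀ a b, f₁ a = f₂ b ↔ (a : G) = b) : f₁.range ⊓ f₂.range = ((M₁ ⊓ M₂).subgroupOf M₁).map f₁ := by
  ext x
  constructor
  · rintro ⟨⟨a, rfl⟩, b, e⟩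
    exact ⟨a, ⟨a.2, (((h a b).1 e.symm).symm ▸ b.2 : (a : G) ∈ M₂)⟩, rfl⟩
  · rintro ⟨a, ha, rfl⟩
    exact ⟨⟨a, rfl⟩, ⟨a, ha.2⟩, ((h a _).2 rfl).symm⟩

theorem we_range {X : Type*} [Group X] [Finite X] {M₁ M₂ : Subgroup G} [Finite M₁] {f₁ : M₁ →* X} {f₂ : M₂ →* X}
    (i₁ : Function.Injective f₁) (h : ∀ a b, f₁ a = f₂ b ↔ (a : G) = b) (S : Sylow 2 M₁)
    (hS : (S : Subgroup M₁) = (M₁ ⊓ M₂).subgroupOf M₁) (e : M₁ ⧸ pCore 2 M₁ ≃* Equiv.Perm (Fin 3))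
    (hc : ∀ N : Subgroup G, N ≤ M₁ ⊓ M₂ → (N.subgroupOf M₁).Normal → (N.subgroupOf M₂).Normal → N = ⊥) :
    WE f₁.range f₂.range := by
  have h6 : (pCore 2 M₁).index = 6 := by
    rw [Subgroup.index, Nat.card_congr e.toEquiv, Nat.card_perm]
    simp [Nat.factorial]
  have hO : pCore 2 M₁ ≤ (S : Subgroup M₁) := H1.pCore_le_sylow S
  have hm := relIndex_mul_index hO
  have hodd : ¬ 2 ∣ (S : Subgroup M₁).index := S.not_dvd_index
  obtain ⟨k, hk⟩ := (S.isPGroup'.index ((pCore 2 M₁).subgroupOf S))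
  have hk' : (pCore 2 M₁).relIndex S = 2 ^ k := hk
  rw [h6, hk'] at hm
  have h3 : (S : Subgroup M₁).index = 3 := by
    rcases k with _ | _ | k
    · omega
    · omega
    · exfalso
      rw [pow_succ, pow_succ] at hm
      have : 4 ∣ 6 := ⟨2 ^ k * (S : Subgroup M₁).index, by rw [← hm]; ring⟩
      omega
  have hT := range_inf h
  rw [← hS] at hT
  have nrm : ∀ {M : Subgroup G} (f : M →* X) (N : Subgroup X), f.range ≤ 𝐍(N) → (N.comap f).Normal :=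
    fun f N hN => ⟨fun n hn g => by
      rw [mem_comap, map_mul, map_mul, map_inv]
      exact H69.conj_mem_of_mem_normalizer (hN ⟨g, rfl⟩) hn⟩
  refine we_of_not_normal (hT ▸ S.isPGroup'.map f₁) ?_ (fun N h1 h2 h3 => ?_) fun hn => ?_
  · rw [← inf_relIndex_left, hT, MonoidHom.range_eq_map, relIndex_map_map_of_injective _ _ i₁, relIndex_top_right, h3]
  · have := hc ((N.comap f₁).map M₁.subtype) ?_ ?_ ?_
    · rw [eq_bot_iff]
      intro x hx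
      obtain ⟨a, rfl⟩ := (h1 hx).1
      rw [show a = 1 from Subtype.ext (this.le ⟨a, hx, rfl⟩), map_one]
      exact one_mem _
    · rintro _ ⟨a, ha, rfl⟩
      obtain ⟨b, hb⟩ := (h1 ha).2
      exact ⟨a.2, (((h a b).1 hb.symm).symm ▸ b.2 : (a : G) ∈ M₂)⟩
    · rw [Subgroup.subgroupOf, comap_map_eq_self_of_injective M₁.subtype_injective]
      exact nrm f₁ N h2
    · convert nrm f₂ N h3 using 1
      ext b
      constructor
      · rintro ⟨a, ha, e⟩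
        rw [mem_comap, ← (h a b).2 e]
        exact ha
      · intro hb
        obtain ⟨a, ha⟩ := (h1 hb).1
        exact ⟨a, show f₁ a ∈ N from ha ▸ hb, (h a b).1 ha⟩
  · have := nrm f₁ _ hn
    rw [hT, comap_map_eq_self_of_injective i₁] at this
    have := index_dvd_of_le (H1.le_pCore S.isPGroup' : (S : Subgroup M₁) ≤ pCore 2 M₁)
    rw [h6, h3] at this
    omega

theorem goldschmidt_bound (M₁ M₂ : Subgroup G) [Finite M₁] [Finite M₂] (S₁ : Sylow 2 M₁) (S₂ : Sylow 2 M₂)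
    (h₁ : (S₁ : Subgroup M₁) = (M₁ ⊓ M₂).subgroupOf M₁) (h₂ : (S₂ : Subgroup M₂) = (M₁ ⊓ M₂).subgroupOf M₂)
    (e₁ : M₁ ⧸ pCore 2 M₁ ≃* Equiv.Perm (Fin 3)) (e₂ : M₂ ⧸ pCore 2 M₂ ≃* Equiv.Perm (Fin 3))
    (hc : ∀ N : Subgroup G, N ≤ M₁ ⊓ M₂ → (N.subgroupOf M₁).Normal → (N.subgroupOf M₂).Normal → N = ⊥) :
    Nat.card (M₁ ⊓ M₂ : Subgroup G) ≤ 128 := by
  obtain ⟨X, _, _, f₁, f₂, i₁, i₂, h, hg⟩ := exists_completion M₁ M₂
  have := WA.card_le ⟨we_range i₁ h S₁ h₁ e₁ hc, we_range i₂ (fun a b => by rw [eq_comm, h, eq_comm]) S₂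
    (by rw [h₂, inf_comm]) e₂ fun N a b c => hc N (a.trans (inf_comm _ _).le) c b, hg⟩
  rwa [range_inf h, card_map_of_injective i₁, H69.card_subgroupOf inf_le_left] at this

end completion

end H3.G3
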